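/-
Piece (N1) of helper10's BG 14.7 n-gon farm (#877): the polygon count.
-/
import Mathlib

set_option autoImplicit false

namespace Cfsg.Agent.Lib.Helper62.BG147N

universe u

variable {G : Type u} [Group G] [Finite G]

/-- (N1) the polygon count (pure arithmetic / finite sets). -/
theorem ngon_count (Z : Subgroup G) (I : Finset (Subgroup G)) (S : Subgroup G → Subgroup G)
    (B : Subgroup G → Set G) (C T : Set G) (hI : 2 ≤ I.card)
    (hT : T = {t : G | t ∈ Z ∧ ∀ N ∈ I, t ∉ S N})
    (hC : Nat.card Z * C.ncard = T.ncard * Nat.card G)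
    (hB : ∀ N ∈ I, (B N).ncard = (Nat.card (S N) - 1) * N.index)
    (hcard : ∀ N ∈ I, Nat.card N * Nat.card (Z ⊓ S N : Subgroup G) = Nat.card (S N) * Nat.card Z)
    (h3 : ∀ N ∈ I, 3 * Nat.card (Z ⊓ S N : Subgroup G) ≤ Nat.card (S N))
    (hBB : ∀ N ∈ I, ∀ N' ∈ I, N ≠ N' → Disjoint (B N) (B N'))
    (hCB : ∀ N ∈ I, Disjoint C (B N)) : False := by
  classical
  have := Fintype.ofFinite G
  have hg : 0 < Nat.card G := Nat.card_pos
  -- (F1)
  have F1 : ∀ N ∈ I, 3 * Nat.card G * Nat.card (Z ⊓ S N : Subgroup G) ≤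
      3 * Nat.card Z * (B N).ncard + Nat.card G := by
    intro N hN
    have ha : 0 < Nat.card (Z ⊓ S N : Subgroup G) := Nat.card_pos
    have hs : 0 < Nat.card (S N) := Nat.card_pos
    obtain ⟨s', hs'⟩ : ∃ s', Nat.card (S N) = s' + 1 := ⟨Nat.card (S N) - 1, by omega⟩
    have e1 : Nat.card G * Nat.card (Z ⊓ S N : Subgroup G) =
        Nat.card (S N) * Nat.card Z * N.index := by
      rw [← hcard N hN, ← N.card_mul_index]; ring
    have e2 : 3 * (Nat.card Z * N.index) ≤ Nat.card G := by
      have h4 : 3 * (Nat.card Z * N.index) * Nat.card (Z ⊓ S N : Subgroup G) ≤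
          Nat.card G * Nat.card (Z ⊓ S N : Subgroup G) := by
        rw [e1]
        calc 3 * (Nat.card Z * N.index) * Nat.card (Z ⊓ S N : Subgroup G)
            = (3 * Nat.card (Z ⊓ S N : Subgroup G)) * (Nat.card Z * N.index) := by ring
          _ ≤ Nat.card (S N) * (Nat.card Z * N.index) := Nat.mul_le_mul_right _ (h3 N hN)
          _ = Nat.card (S N) * Nat.card Z * N.index := by ring
      exact Nat.le_of_mul_le_mul_right h4 ha
    rw [hB N hN, mul_assoc 3, e1, hs', Nat.add_sub_cancel]
    nlinarith [e2]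
  -- (F2)
  have F2 : Nat.card Z ≤ T.ncard + 1 + ∑ N ∈ I, (Nat.card (Z ⊓ S N : Subgroup G) - 1) := by
    let f : Subgroup G → Finset G := fun N => (((Z ⊓ S N : Subgroup G) : Set G) \ {1}).toFinset
    have hf : ∀ N, (f N).card = Nat.card (Z ⊓ S N : Subgroup G) - 1 := by
      intro N
      rw [← Set.ncard_eq_toFinset_card', Set.ncard_sdiff_singleton_of_mem (one_mem _)]
      rfl
    have h1 : (Z : Set G) ⊆ (T ∪ {1}) ∪ ((I.biUnion f : Finset G) : Set G) := by
      intro t ht
      by_cases h : ∀ N ∈ I, t ∉ S N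
      · left; left; rw [hT]; exact ⟨ht, h⟩
      · push Not at h
        obtain ⟨N, hN, htN⟩ := h
        by_cases h1 : t = 1
        · left; right; exact h1
        · right
          simp only [Finset.coe_biUnion, Set.mem_iUnion]
          refine ⟨N, hN, ?_⟩
          simp only [f, Set.coe_toFinset]
          exact ⟨⟨ht, htN⟩, h1⟩
    calc Nat.card Z = (Z : Set G).ncard := rfl
      _ ≤ ((T ∪ {1}) ∪ ((I.biUnion f : Finset G) : Set G)).ncard :=
          Set.ncard_le_ncard h1 (Set.toFinite _)
      _ ≤ (T ∪ {1}).ncard + ((I.biUnion f : Finset G) : Set G).ncard := Set.ncard_union_le _ _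
      _ ≤ (T.ncard + 1) + (I.biUnion f).card := by
          refine Nat.add_le_add ?_ (by rw [Set.ncard_coe_finset])
          refine (Set.ncard_union_le _ _).trans ?_
          rw [Set.ncard_singleton]
      _ ≤ (T.ncard + 1) + ∑ N ∈ I, (f N).card := Nat.add_le_add_left Finset.card_biUnion_le _
      _ = _ := by simp only [hf]
  -- (F3)
  have F3 : C.ncard + ∑ N ∈ I, (B N).ncard ≤ Nat.card G := by
    let f : Subgroup G → Finset G := fun N => (B N).toFinset
    have hf : ∀ N, (f N).card = (B N).ncard := fun N => (Set.ncard_eq_toFinset_card' _).symm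
    have h1 : (I.biUnion f).card = ∑ N ∈ I, (f N).card := by
      apply Finset.card_biUnion
      intro N hN N' hN' hne
      change Disjoint (B N).toFinset (B N').toFinset
      rw [Set.disjoint_toFinset]
      exact hBB N hN N' hN' hne
    have h2 : Disjoint C.toFinset (I.biUnion f) := by
      rw [Finset.disjoint_biUnion_right]
      intro N hN
      simp only [f]
      rw [Set.disjoint_toFinset]
      exact hCB N hN
    calc C.ncard + ∑ N ∈ I, (B N).ncard = C.toFinset.card + (I.biUnion f).card := by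
          rw [h1, Set.ncard_eq_toFinset_card']; simp only [hf]
      _ = (C.toFinset ∪ I.biUnion f).card := (Finset.card_union_of_disjoint h2).symm
      _ ≤ Fintype.card G := Finset.card_le_univ _
      _ = Nat.card G := Nat.card_eq_fintype_card.symm
  -- sums
  have S1 : 3 * Nat.card G * ∑ N ∈ I, Nat.card (Z ⊓ S N : Subgroup G) ≤
      3 * Nat.card Z * ∑ N ∈ I, (B N).ncard + I.card * Nat.card G := by
    rw [Finset.mul_sum, Finset.mul_sum, ← smul_eq_mul I.card, ← Finset.sum_const,
      ← Finset.sum_add_distrib]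
    exact Finset.sum_le_sum F1
  have S2 : ∑ N ∈ I, Nat.card (Z ⊓ S N : Subgroup G) =
      ∑ N ∈ I, (Nat.card (Z ⊓ S N : Subgroup G) - 1) + I.card := by
    rw [Finset.card_eq_sum_ones, ← Finset.sum_add_distrib]
    refine Finset.sum_congr rfl fun N _ => ?_
    have ha : 0 < Nat.card (Z ⊓ S N : Subgroup G) := Nat.card_pos
    omega
  rw [S2] at S1
  generalize (∑ N ∈ I, (Nat.card (Z ⊓ S N : Subgroup G) - 1)) = A' at *
  generalize (∑ N ∈ I, (B N).ncard) = Bs at *
  generalize Nat.card G = g at *
  generalize Nat.card Z = z at *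
  generalize I.card = n at *
  generalize T.ncard = t at *
  generalize C.ncard = c at *
  have h5 : 3 * g * z ≤ 3 * g * (t + 1 + A') := Nat.mul_le_mul_left _ F2
  have h6 : 3 * z * (c + Bs) ≤ 3 * z * g := Nat.mul_le_mul_left _ F3
  have h7 : g * 2 ≤ g * n := Nat.mul_le_mul_left _ hI
  nlinarith
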