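/-
Piece (N2) of helper10's BG 14.7 n-gon farm (#877): the number of conjugates of a TI-set.
-/
import Mathlib

set_option autoImplicit false

namespace Cfsg.Agent.Lib.Helper62.BG147N

universe u

variable {G : Type u} [Group G] [Finite G]

theorem card_eq_mul_fib {α β : Type*} [Finite α] [Finite β] (f : α → β) (k : ℕ)
    (h : ∀ b, Nat.card {a // f a = b} = k) : Nat.card α = k * Nat.card β := by
  classical
  have := Fintype.ofFinite β
  rw [Nat.card_congr (Equiv.sigmaFiberEquiv f).symm, Nat.card_sigma]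
  simp [h, mul_comm]

/-- (N2) conjugates of a TI-set. -/
theorem card_conj_TI {Z : Subgroup G} {T : Set G} (hZT : ∀ z ∈ Z, ∀ t ∈ T, z * t * z⁻¹ ∈ T)
    (hTI : ∀ t ∈ T, ∀ g : G, g * t * g⁻¹ ∈ T → g ∈ Z) :
    Nat.card Z * Set.ncard {a : G | ∃ g : G, ∃ t ∈ T, a = g * t * g⁻¹} =
      Set.ncard T * Nat.card G := by
  set C : Set G := {a : G | ∃ g : G, ∃ t ∈ T, a = g * t * g⁻¹} with hC
  have key : Nat.card (G × T) = Nat.card Z * Nat.card C := by
    apply card_eq_mul_fib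
      (fun x : G × T => (⟨x.1 * x.2 * x.1⁻¹, x.1, x.2, x.2.2, rfl⟩ : C))
    rintro ⟨_, g₀, t₀, ht₀, rfl⟩
    symm
    refine Nat.card_congr (Equiv.ofBijective (fun z : Z =>
      ⟨(g₀ * (z : G)⁻¹, ⟨z * t₀ * (z : G)⁻¹, hZT z z.2 t₀ ht₀⟩), ?_⟩) ⟨?_, ?_⟩)
    · apply Subtype.ext
      simp only [mul_inv_rev, inv_inv]
      group
    · intro z z' h
      have h1 : g₀ * (z : G)⁻¹ = g₀ * (z' : G)⁻¹ :=
        congrArg (fun x : {a : G × T // _} => x.1.1) h
      exact Subtype.ext (inv_injective (mul_left_cancel h1))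
    · rintro ⟨⟨g, t, ht⟩, h⟩
      have h' : g * t * g⁻¹ = g₀ * t₀ * g₀⁻¹ := congrArg Subtype.val h
      have ht' : (g⁻¹ * g₀) * t₀ * (g⁻¹ * g₀)⁻¹ = t := by
        have : t = g⁻¹ * (g * t * g⁻¹) * g := by group
        rw [this, h']
        group
      have hz : g⁻¹ * g₀ ∈ Z := hTI t₀ ht₀ _ (ht'.symm ▸ ht)
      refine ⟨⟨g⁻¹ * g₀, hz⟩, ?_⟩
      apply Subtype.ext
      refine Prod.ext ?_ (Subtype.ext ?_)
      · simp
      · exact ht'
  rw [Nat.card_prod] at key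
  rw [← Nat.card_coe_set_eq, ← Nat.card_coe_set_eq, ← key, mul_comm]

end Cfsg.Agent.Lib.Helper62.BG147N
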