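import Mathlib

/-!
# The Baer trick

A group `V` of class at most two and odd exponent `n` carries the structure of an abelian group
`x + y = x y [y, x]^h`, `2 h = n + 1`, preserved by all automorphisms of `V`.
As an application: Thompson's strengthening of the `P × Q` lemma for groups of class at most two.
-/

set_option autoImplicit false

namespace Cfsg.Agent.Lib.Helper62

open scoped commutatorElement

section
variable {V : Type*} [Group V]

theorem commutator_mul_left_of_class_two (hc : ∀ x y z : V, Commute ⁅x, y⁆ z) (x y z : V) :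
    ⁅x * y, z⁆ = ⁅x, z⁆ * ⁅y, z⁆ := by
  have h1 : ⁅x * y, z⁆ = x * ⁅y, z⁆ * x⁻¹ * ⁅x, z⁆ := by
    simp only [commutatorElement_def]; group
  rw [h1, ← (hc y z x).eq, mul_inv_cancel_right, (hc y z _).eq]

theorem commutator_mul_right_of_class_two (hc : ∀ x y z : V, Commute ⁅x, y⁆ z) (x y z : V) :
    ⁅x, y * z⁆ = ⁅x, y⁆ * ⁅x, z⁆ := by
  rw [← commutatorElement_inv (y * z) x, commutator_mul_left_of_class_two hc, mul_inv_rev,
    commutatorElement_inv, commutatorElement_inv, (hc x z _).eq]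

/-- The Baer addition. -/
def baerAdd (h : ℕ) (x y : V) : V := x * y * ⁅y, x⁆ ^ h

theorem baerAdd_assoc (hc : ∀ x y z : V, Commute ⁅x, y⁆ z) (h : ℕ) (x y z : V) :
    baerAdd h (baerAdd h x y) z = baerAdd h x (baerAdd h y z) := by
  unfold baerAdd
  have e1 : ⁅z, x * y * ⁅y, x⁆ ^ h⁆ = ⁅z, x⁆ * ⁅z, y⁆ := by
    rw [commutator_mul_right_of_class_two hc, commutator_mul_right_of_class_two hc,
      commutatorElement_eq_one_iff_commute.mpr ((hc y x z).pow_left h).symm, mul_one]
  have e2 : ⁅y * z * ⁅z, y⁆ ^ h, x⁆ = ⁅y, x⁆ * ⁅z, x⁆ := by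
    rw [commutator_mul_left_of_class_two hc, commutator_mul_left_of_class_two hc,
      commutatorElement_eq_one_iff_commute.mpr ((hc z y x).pow_left h), mul_one]
  rw [e1, e2, (hc z x _).mul_pow, (hc y x _).mul_pow]
  set A := ⁅y, x⁆ ^ h with hA
  set B := ⁅z, y⁆ ^ h with hB
  set C := ⁅z, x⁆ ^ h with hC
  have cA : ∀ w, Commute A w := fun w => (hc y x w).pow_left h
  have cB : ∀ w, Commute B w := fun w => (hc z y w).pow_left h
  calc x * y * A * z * (C * B) = x * y * (A * z) * (C * B) := by simp only [mul_assoc]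
    _ = x * y * (z * A) * (C * B) := by rw [(cA z).eq]
    _ = x * y * z * (A * C * B) := by simp only [mul_assoc]
    _ = x * y * z * (B * (A * C)) := by rw [(cB (A * C)).eq]
    _ = x * (y * z * B) * (A * C) := by simp only [mul_assoc]

theorem baerAdd_comm (hc : ∀ x y z : V, Commute ⁅x, y⁆ z) {n h : ℕ} (hn : ∀ x : V, x ^ n = 1)
    (hh : 2 * h = n + 1) (x y : V) : baerAdd h x y = baerAdd h y x := by
  unfold baerAdd
  set c := ⁅y, x⁆ with hcdef
  have h1 : ⁅x, y⁆ = c⁻¹ := (commutatorElement_inv y x).symm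
  have h2 : y * x = c * (x * y) := by rw [hcdef, commutatorElement_def]; group
  have h3 : c ^ h * c ^ h = c := by
    rw [← pow_add, ← two_mul, hh, pow_succ, hn, one_mul]
  have cc : Commute c (x * y) := hc y x _
  rw [h1, h2, cc.eq, inv_pow, mul_assoc (x * y)]
  congr 1
  rw [eq_mul_inv_iff_mul_eq]
  exact h3

/-- The Baer abelian group structure on a group of class at most two and odd exponent. -/
@[reducible]
def baerAddCommGroup (hc : ∀ x y z : V, Commute ⁅x, y⁆ z) {n h : ℕ} (hn : ∀ x : V, x ^ n = 1)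
    (hh : 2 * h = n + 1) : AddCommGroup V :=
  letI : Add V := ⟨baerAdd h⟩
  letI : Zero V := ⟨1⟩
  letI : Neg V := ⟨fun x => x⁻¹⟩
  { AddGroup.ofLeftAxioms (G := V) (baerAdd_assoc hc h)
      (fun x => by
        change baerAdd h 1 x = x
        simp [baerAdd])
      (fun x => by
        change baerAdd h x⁻¹ x = 1
        have : ⁅x, x⁻¹⁆ = 1 :=
          commutatorElement_eq_one_iff_commute.mpr (Commute.refl x).inv_right
        simp [baerAdd, this]) with
    add_comm := baerAdd_comm hc hn hh }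

end

/-- Thompson's strengthening of the `P × Q` lemma, for an odd prime `p` and a `p`-group `V` of class
at most two: `P` is a `p`-group normalizing the `p'`-group `Q`, both acting on `V`; if
`C_V(P) ≤ C_V(Q)` then `Q` acts trivially. -/
theorem thompson_PQ_class_two {V Γ : Type*} [Group V] [Finite V] [Group Γ]
    [MulDistribMulAction Γ V] {p : ℕ} [hpp : Fact p.Prime] (hp : p ≠ 2) (hV : IsPGroup p V)
    (hc : ∀ x y z : V, Commute ⁅x, y⁆ z) (P Q : Subgroup Γ) [Finite Q] (hP : IsPGroup p P)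
    (hQ : (Nat.card Q).Coprime p) (hPQ : P ≤ Subgroup.normalizer (Q : Set Γ))
    (hC : ∀ v : V, (∀ x ∈ P, x • v = v) → ∀ q ∈ Q, q • v = v) :
    ∀ q ∈ Q, ∀ v : V, q • v = v := by
  classical
  obtain ⟨k, hk⟩ := IsPGroup.iff_card.mp hV
  have hn : ∀ x : V, x ^ Nat.card V = 1 := fun x => pow_card_eq_one'
  have hodd : Odd (Nat.card V) := by
    rw [hk]
    exact (hpp.out.odd_of_ne_two hp).pow
  obtain ⟨h, hh⟩ : ∃ h, 2 * h = Nat.card V + 1 := by
    obtain ⟨m, hm⟩ := hodd
    exact ⟨m + 1, by omega⟩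
  let _ : AddCommGroup V := baerAddCommGroup hc hn hh
  have := Fintype.ofFinite Q
  let a : Γ → (V →+ V) := fun g =>
    { toFun := fun v => g • v
      map_zero' := smul_one g
      map_add' := fun x y => by
        change g • baerAdd h x y = baerAdd h (g • x) (g • y)
        simp [baerAdd, commutatorElement_def, smul_mul', smul_inv', smul_pow'] }
  have ha : ∀ g v, a g v = g • v := fun _ _ => rfl
  let tr : V →+ V := ∑ q : Q, a q
  have tr_apply : ∀ v, tr v = ∑ q : Q, (q : Γ) • v := by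
    intro v
    simp only [tr, AddMonoidHom.finsetSum_apply, ha]
  have hfix : ∀ q' ∈ Q, ∀ v, q' • tr v = tr v := by
    intro q' hq' v
    rw [← ha, tr_apply, map_sum]
    refine Fintype.sum_equiv (Equiv.mulLeft (⟨q', hq'⟩ : Q)) _ _ ?_
    intro q
    rw [ha, ← mul_smul]
    rfl
  have hequiv : ∀ x ∈ P, ∀ v, x • tr v = tr (x • v) := by
    intro x hx v
    rw [← ha x (tr v), tr_apply, tr_apply, map_sum]
    refine Fintype.sum_equiv
      (MulAction.toPerm (⟨x, hPQ hx⟩ : Subgroup.normalizer (Q : Set Γ)) : Equiv.Perm Q) _ _ ?_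
    intro q
    rw [ha, ← mul_smul, ← mul_smul]
    congr 1
    change x * q = x * q * x⁻¹ * x
    group
  by_contra hcon
  push Not at hcon
  obtain ⟨q₀, hq₀, v₀, hv₀⟩ := hcon
  have hnsurj : ¬ Function.Surjective tr := by
    intro hs
    obtain ⟨w, hw⟩ := hs v₀
    exact hv₀ (hw ▸ hfix q₀ hq₀ w)
  have hninj : ¬ Function.Injective tr := fun hi => hnsurj (Finite.injective_iff_surjective.mp hi)
  have hTne : tr.ker ≠ ⊥ := fun h0 => hninj ((AddMonoidHom.ker_eq_bot_iff tr).mp h0)
  let _ : MulAction P tr.ker :=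
    { smul := fun x t => ⟨(x : Γ) • (t : V), by
        rw [AddMonoidHom.mem_ker, ← hequiv x x.2, AddMonoidHom.mem_ker.mp t.2]
        exact smul_one (x : Γ)⟩
      one_smul := fun t => Subtype.ext (one_smul Γ (t : V))
      mul_smul := fun x y t => Subtype.ext (mul_smul (x : Γ) (y : Γ) (t : V)) }
  have hsmul : ∀ (x : P) (t : tr.ker), ((x • t : tr.ker) : V) = (x : Γ) • (t : V) := fun _ _ => rfl
  have hdvd : p ∣ Nat.card tr.ker := by
    have h1 : Nat.card tr.ker ∣ p ^ k := hk ▸ AddSubgroup.card_addSubgroup_dvd_card tr.ker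
    obtain ⟨j, -, hj⟩ := (Nat.dvd_prime_pow hpp.out).mp h1
    rw [hj]
    apply dvd_pow_self
    rintro rfl
    rw [pow_zero] at hj
    exact hTne (AddSubgroup.card_eq_one.mp hj)
  have h0 : (0 : tr.ker) ∈ MulAction.fixedPoints P tr.ker := by
    intro x
    apply Subtype.ext
    rw [hsmul]
    exact smul_one (x : Γ)
  obtain ⟨b, hb, hb0⟩ := hP.exists_fixed_point_of_prime_dvd_card_of_fixed_point tr.ker hdvd h0
  apply hb0
  have hbP : ∀ x ∈ P, x • (b : V) = b := fun x hx => congrArg Subtype.val (hb ⟨x, hx⟩)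
  have hbQ := hC b hbP
  have h1 : Nat.card Q • (b : V) = 0 := by
    have h2 := AddMonoidHom.mem_ker.mp b.2
    rw [tr_apply, Finset.sum_congr rfl (fun (q : Q) _ => hbQ q q.2), Finset.sum_const, Finset.card_univ,
      ← Nat.card_eq_fintype_card] at h2
    exact h2
  have h2 : Nat.card V • (b : V) = 0 := card_nsmul_eq_zero'
  have h3 : addOrderOf (b : V) ∣ Nat.gcd (Nat.card Q) (Nat.card V) :=
    Nat.dvd_gcd (addOrderOf_dvd_of_nsmul_eq_zero h1) (addOrderOf_dvd_of_nsmul_eq_zero h2)
  rw [hk, (Nat.Coprime.pow_right k hQ).gcd_eq_one, Nat.dvd_one, AddMonoid.addOrderOf_eq_one_iff] at h3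
  exact (Subtype.ext h3).symm

end Cfsg.Agent.Lib.Helper62
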