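import Cfsg.Prelude.Def_OddOrderLocal
import Cfsg.Agent.Lib.Helper1.CoprimeSylow
import Cfsg.Agent.Lib.Helper52.SZ
import Cfsg.Agent.Lib.Helper62.Bar
import Cfsg.Agent.Lib.Helper62.Local

/-!
# Hall `π`-subgroups of solvable subgroups and coprime action
-/

set_option autoImplicit false

namespace Cfsg.Agent.Lib.Helper62

open Cfsg Cfsg.Agent.Lib.Helper1 Cfsg.Agent.Lib.Lead
open scoped Pointwise

universe u

/-- `n` is a `π`-number. -/
def PiNum (π : Set ℕ) (n : ℕ) : Prop := ∀ p : ℕ, p.Prime → p ∣ n → p ∈ π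

/-- `n` is a `π'`-number. -/
def PiPrimeNum (π : Set ℕ) (n : ℕ) : Prop := ∀ p : ℕ, p.Prime → p ∈ π → ¬ p ∣ n

theorem PiNum.of_dvd {π : Set ℕ} {a b : ℕ} (h : PiNum π b) (hab : a ∣ b) : PiNum π a :=
  fun p hp hpa => h p hp (hpa.trans hab)

theorem PiPrimeNum.of_dvd {π : Set ℕ} {a b : ℕ} (h : PiPrimeNum π b) (hab : a ∣ b) :
    PiPrimeNum π a :=
  fun p hp hpπ hpa => h p hp hpπ (hpa.trans hab)

theorem PiNum.mul {π : Set ℕ} {a b : ℕ} (ha : PiNum π a) (hb : PiNum π b) : PiNum π (a * b) :=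
  fun p hp h => (hp.dvd_mul.mp h).elim (ha p hp) (hb p hp)

theorem PiPrimeNum.mul {π : Set ℕ} {a b : ℕ} (ha : PiPrimeNum π a) (hb : PiPrimeNum π b) :
    PiPrimeNum π (a * b) :=
  fun p hp hpπ h => (hp.dvd_mul.mp h).elim (ha p hp hpπ) (hb p hp hpπ)

theorem PiNum.coprime {π : Set ℕ} {a b : ℕ} (ha : PiNum π a) (hb : PiPrimeNum π b) :
    a.Coprime b :=
  Nat.coprime_of_dvd fun p hp hpa hpb => hb p hp (ha p hp hpa) hpb

theorem piNum_one (π : Set ℕ) : PiNum π 1 :=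
  fun _ hp h => absurd (Nat.dvd_one.mp h) hp.one_lt.ne'

theorem piPrimeNum_one (π : Set ℕ) : PiPrimeNum π 1 :=
  fun _ hp _ h => absurd (Nat.dvd_one.mp h) hp.one_lt.ne'

theorem piNum_prime_pow {π : Set ℕ} {q : ℕ} (hq : q.Prime) (hqπ : q ∈ π) (k : ℕ) :
    PiNum π (q ^ k) := by
  intro p hp h
  rw [(Nat.prime_dvd_prime_iff_eq hp hq).mp (hp.dvd_of_dvd_pow h)]
  exact hqπ

theorem piPrimeNum_prime_pow {π : Set ℕ} {q : ℕ} (hq : q.Prime) (hqπ : q ∉ π) (k : ℕ) :
    PiPrimeNum π (q ^ k) := by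
  intro p hp hpπ h
  rw [(Nat.prime_dvd_prime_iff_eq hp hq).mp (hp.dvd_of_dvd_pow h)] at hpπ
  exact hqπ hpπ

theorem exists_pi_decomp (π : Set ℕ) (k : ℕ) (hk : k ≠ 0) :
    ∃ m n : ℕ, k = m * n ∧ PiNum π m ∧ PiPrimeNum π n := by
  induction k using Nat.strong_induction_on with
  | _ k ih =>
  by_cases h1 : k = 1
  · exact ⟨1, 1, by rw [h1], piNum_one π, piPrimeNum_one π⟩
  have hp := Nat.minFac_prime h1
  obtain ⟨k', hk'⟩ := Nat.minFac_dvd k
  have hk'0 : k' ≠ 0 := by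
    rintro rfl
    exact hk (by rw [hk', mul_zero])
  have hlt : k' < k := by
    conv_rhs => rw [hk']
    exact lt_mul_of_one_lt_left (Nat.pos_of_ne_zero hk'0) hp.one_lt
  obtain ⟨m, n, hmn, hm, hn⟩ := ih k' hlt hk'0
  by_cases hπ : k.minFac ∈ π
  · refine ⟨k.minFac * m, n, by rw [mul_assoc, ← hmn, ← hk'], ?_, hn⟩
    have := piNum_prime_pow hp hπ 1
    rw [pow_one] at this
    exact this.mul hm
  · refine ⟨m, k.minFac * n, by rw [mul_left_comm, ← hmn, ← hk'], hm, ?_⟩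
    have := piPrimeNum_prime_pow hp hπ 1
    rw [pow_one] at this
    exact this.mul hn

theorem pi_part_unique {π : Set ℕ} {a b a' b' : ℕ} (h : a * b = a' * b') (ha : PiNum π a)
    (hb : PiPrimeNum π b) (ha' : PiNum π a') (hb' : PiPrimeNum π b') : a = a' := by
  apply Nat.dvd_antisymm
  · exact (ha.coprime hb').dvd_of_dvd_mul_right (h ▸ Dvd.intro _ rfl)
  · exact (ha'.coprime hb).dvd_of_dvd_mul_right (h ▸ Dvd.intro _ rfl)

variable {X : Type u} [Group X]

theorem isPiHallOf_iff {π : Set ℕ} {H G : Subgroup X} :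
    IsPiHallOf π H G ↔ H ≤ G ∧ PiNum π (Nat.card H) ∧ PiPrimeNum π (H.relIndex G) := Iff.rfl

theorem IsPiHallOf.coprime {π : Set ℕ} {H G : Subgroup X} (h : IsPiHallOf π H G) :
    (Nat.card H).Coprime (H.relIndex G) :=
  PiNum.coprime h.2.1 h.2.2

theorem IsPiHallOf.card_eq {π : Set ℕ} {H K G : Subgroup X} (hH : IsPiHallOf π H G)
    (hK : IsPiHallOf π K G) : Nat.card H = Nat.card K := by
  have h1 := relIndex_mul_card hH.1
  have h2 := relIndex_mul_card hK.1
  apply pi_part_unique (π := π) (b := H.relIndex G) (b' := K.relIndex G) _ hH.2.1 hH.2.2 hK.2.1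
    hK.2.2
  rw [mul_comm, h1, mul_comm, h2]

theorem IsPiHallOf.conj {π : Set ℕ} {H G : Subgroup X} (h : IsPiHallOf π H G) {g : X}
    (hg : g ∈ Subgroup.normalizer (G : Set X)) : IsPiHallOf π (MulAut.conj g • H) G := by
  have hgG := conj_smul_eq_of_mem_normalizer hg
  refine ⟨?_, ?_, ?_⟩
  · conv_rhs => rw [← hgG]
    exact Subgroup.pointwise_smul_le_pointwise_smul_iff.2 h.1
  · rw [card_conj_smul]
    exact h.2.1
  · rw [← hgG, relIndex_conj_smul]
    exact h.2.2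

theorem IsPiHallOf.trans {π : Set ℕ} {H K G : Subgroup X} (h1 : IsPiHallOf π H K) (hKG : K ≤ G)
    (h2 : PiPrimeNum π (K.relIndex G)) : IsPiHallOf π H G := by
  refine ⟨h1.1.trans hKG, h1.2.1, ?_⟩
  rw [← Subgroup.relIndex_mul_relIndex H K G h1.1 hKG]
  exact PiPrimeNum.mul h1.2.2 h2

variable [Finite X]

theorem exists_isPiHallOf (π : Set ℕ) (G : Subgroup X) (hG : Group.IsSolvable G) :
    ∃ H, IsPiHallOf π H G := by
  obtain ⟨m, n, hmn, hm, hn⟩ := exists_pi_decomp π (Nat.card G) Nat.card_pos.ne'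
  obtain ⟨H', hH'⟩ := hall_exists (G := G) m n hmn (hm.coprime hn)
  have hc : Nat.card (H'.map G.subtype) = m := by
    rw [Subgroup.card_map_of_injective G.subtype_injective, hH']
  have hle : H'.map G.subtype ≤ G := Subgroup.map_subtype_le _
  refine ⟨H'.map G.subtype, hle, by rw [hc]; exact hm, ?_⟩
  have h1 := relIndex_mul_card hle
  rw [hc, hmn, mul_comm] at h1
  have hm0 : 0 < m := by
    rcases Nat.eq_zero_or_pos m with h | h
    · rw [h, zero_mul] at hmn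
      exact absurd hmn Nat.card_pos.ne'
    · exact h
  rw [Nat.eq_of_mul_eq_mul_left hm0 h1]
  exact hn

theorem IsPiHallOf.exists_conj {π : Set ℕ} {H K G : Subgroup X} (hG : Group.IsSolvable G)
    (hH : IsPiHallOf π H G) (hK : IsPiHallOf π K G) : ∃ g ∈ G, MulAut.conj g • H = K :=
  hall_conj_rel G hG H K hH.1 hK.1 (IsPiHallOf.coprime hH) (IsPiHallOf.card_eq hK hH)

/-- Coprime action: existence of an invariant Hall subgroup. -/
theorem exists_invariant_hall (A G : Subgroup X)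
    (hAG : A ≤ Subgroup.normalizer (G : Set X)) (hcop : (Nat.card A).Coprime (Nat.card G))
    (hsolv : Group.IsSolvable G) (π : Set ℕ) :
    ∃ H : Subgroup X, IsPiHallOf π H G ∧ A ≤ Subgroup.normalizer (H : Set X) := by
  obtain ⟨P, hP⟩ := exists_isPiHallOf π G hsolv
  let R : Subgroup X := Subgroup.normalizer (P : Set X) ⊓ (A ⊔ G)
  have hRK : R ⊔ G = A ⊔ G := by
    apply le_antisymm (sup_le inf_le_right le_sup_right)
    refine sup_le ?_ le_sup_right
    intro a ha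
    obtain ⟨k, hk, hk'⟩ := IsPiHallOf.exists_conj hsolv (IsPiHallOf.conj hP (hAG ha)) hP
    have hk2 : k * a ∈ Subgroup.normalizer (P : Set X) := by
      rw [mem_normalizer_iff_conj_smul, conj_mul_smul, hk']
    have h1 : a = k⁻¹ * (k * a) := by group
    rw [h1]
    exact Subgroup.mul_mem _ (Subgroup.mem_sup_right (G.inv_mem hk)) (Subgroup.mem_sup_left
      ⟨hk2, Subgroup.mul_mem _ (Subgroup.mem_sup_right hk) (Subgroup.mem_sup_left ha)⟩)
  obtain ⟨k, hk, hk'⟩ := exists_conj_le_of_sup_eq A G R hAG hcop (Or.inr hsolv) hRK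
  refine ⟨MulAut.conj k⁻¹ • P, IsPiHallOf.conj hP (Subgroup.le_normalizer (G.inv_mem hk)), ?_⟩
  rw [le_normalizer_conj_smul_iff, inv_inv]
  exact hk'.trans inf_le_left

/-- Coprime action: invariant Hall subgroups are conjugate under the fixed points. -/
theorem invariant_hall_conj (A G : Subgroup X)
    (hAG : A ≤ Subgroup.normalizer (G : Set X)) (hcop : (Nat.card A).Coprime (Nat.card G))
    (hsolv : Group.IsSolvable G) (π : Set ℕ) (P Q : Subgroup X) (hP : IsPiHallOf π P G)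
    (hQ : IsPiHallOf π Q G)
    (hAP : A ≤ Subgroup.normalizer (P : Set X)) (hAQ : A ≤ Subgroup.normalizer (Q : Set X)) :
    ∃ c ∈ G ⊓ Subgroup.centralizer (A : Set X), MulAut.conj c • P = Q := by
  obtain ⟨k, hk, hk'⟩ := IsPiHallOf.exists_conj hsolv hP hQ
  rw [← hk', le_normalizer_conj_smul_iff] at hAQ
  obtain ⟨c, hc, z, hz, hkz⟩ := exists_mul_of_conj_le A G (Subgroup.normalizer (P : Set X))
    hAG hcop (Or.inr hsolv) hAP k⁻¹ (G.inv_mem hk) hAQ
  refine ⟨z⁻¹, Subgroup.inv_mem _ hz, ?_⟩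
  have h1 : k = z⁻¹ * c⁻¹ := by rw [← inv_inv k, hkz]; group
  rw [← hk', h1, conj_mul_smul]
  congr 1
  exact (mem_normalizer_iff_conj_smul.1 (Subgroup.inv_mem _ hc.1)).symm

/-- Invariant dominance when `H₁` has an invariant normal `π'`-subgroup with `π`-quotient. -/
theorem invariant_le_hall_of_normal_compl (A H₁ N U : Subgroup X) (π : Set ℕ)
    (hAH : A ≤ Subgroup.normalizer (H₁ : Set X)) (hcop : (Nat.card A).Coprime (Nat.card H₁))
    (hsolv : Group.IsSolvable H₁) (hNH : N ≤ H₁) (hHN : H₁ ≤ Subgroup.normalizer (N : Set X))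
    (hAN : A ≤ Subgroup.normalizer (N : Set X)) (hN : PiPrimeNum π (Nat.card N))
    (hq : PiNum π (N.relIndex H₁)) (hU : U ≤ H₁) (hAU : A ≤ Subgroup.normalizer (U : Set X))
    (hUπ : PiNum π (Nat.card U)) :
    ∃ K, IsPiHallOf π K H₁ ∧ A ≤ Subgroup.normalizer (K : Set X) ∧ U ≤ K := by
  obtain ⟨K₀, hK₀, hAK₀⟩ := exists_invariant_hall A H₁ hAH hcop hsolv π
  have hcK : Nat.card K₀ = N.relIndex H₁ := by
    apply pi_part_unique (π := π) (b := K₀.relIndex H₁) (b' := Nat.card N) _ hK₀.2.1 hK₀.2.2 hq hN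
    rw [mul_comm, relIndex_mul_card hK₀.1, relIndex_mul_card hNH]
  have hdisj : ∀ V : Subgroup X, PiNum π (Nat.card V) → Disjoint V N := fun V hV =>
    Subgroup.disjoint_of_coprime_natCard (hV.coprime hN)
  have hKN : K₀ ⊔ N = H₁ := by
    apply Subgroup.eq_of_le_of_card_ge (sup_le hK₀.1 hNH)
    rw [card_sup_of_disjoint (hK₀.1.trans hHN) (hdisj _ hK₀.2.1), hcK, relIndex_mul_card hNH]
  set W : Subgroup X := U ⊔ N with hW
  have hWH : W ≤ H₁ := sup_le hU hNH
  have hAW : A ≤ Subgroup.normalizer (W : Set X) := le_normalizer_sup hAU hAN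
  have hall_of : ∀ V : Subgroup X, V ≤ H₁ → PiNum π (Nat.card V) → V ⊔ N = W →
      IsPiHallOf π V W := by
    intro V hVH hVπ hVW
    have hVW' : V ≤ W := hVW ▸ le_sup_left
    refine ⟨hVW', hVπ, ?_⟩
    have h1 := relIndex_mul_card hVW'
    rw [← hVW, card_sup_of_disjoint (hVH.trans hHN) (hdisj V hVπ), hVW, mul_comm] at h1
    rw [Nat.eq_of_mul_eq_mul_left Nat.card_pos h1]
    exact hN
  have hUW : IsPiHallOf π U W := hall_of U hU hUπ rfl
  have hVW : IsPiHallOf π (K₀ ⊓ W) W := by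
    apply hall_of _ (inf_le_left.trans hK₀.1) (PiNum.of_dvd hK₀.2.1 (Subgroup.card_dvd_of_le inf_le_left))
    apply le_antisymm (sup_le inf_le_right le_sup_right)
    intro w hw
    have hw' : w ∈ K₀ ⊔ N := hKN.symm ▸ hWH hw
    obtain ⟨k, hk, n, hn, rfl⟩ := (mem_sup_of_le_normalizer (hK₀.1.trans hHN)).mp hw'
    refine Subgroup.mul_mem_sup ⟨hk, ?_⟩ hn
    have : k = k * n * n⁻¹ := by group
    rw [SetLike.mem_coe, this]
    exact W.mul_mem hw (W.inv_mem (Subgroup.mem_sup_right hn))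
  obtain ⟨c, hc, hc'⟩ := invariant_hall_conj A W hAW
    (Nat.Coprime.coprime_dvd_right (Subgroup.card_dvd_of_le hWH) hcop)
    (isSolvable_of_le hWH hsolv) π _ _ hVW hUW (le_normalizer_inf hAK₀ hAW) hAU
  refine ⟨MulAut.conj c • K₀, IsPiHallOf.conj hK₀ (Subgroup.le_normalizer (hWH hc.1)), ?_, ?_⟩
  · rw [le_normalizer_conj_smul_iff, conj_smul_eq_of_mem_normalizer]
    · exact hAK₀
    · exact Subgroup.centralizer_le_normalizer _ (Subgroup.inv_mem _ hc.2)
  · rw [← hc']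
    exact Subgroup.pointwise_smul_le_pointwise_smul_iff.2 inf_le_left

omit [Finite X] in
theorem isSolvable_bar {N G : Subgroup X} (h : Group.IsSolvable G) :
    Group.IsSolvable (bar N G) :=
  isSolvable_map _ _ (isSolvable_subgroupOf _ _ h)

/-- Coprime action: an invariant `π`-subgroup lies in an invariant Hall `π`-subgroup. -/
theorem invariant_le_invariant_hall_aux (π : Set ℕ) (n : ℕ) : ∀ (X : Type u) [Group X] [Finite X]
    (A G U : Subgroup X), Nat.card G = n → A ≤ Subgroup.normalizer (G : Set X) →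
    (Nat.card A).Coprime (Nat.card G) → Group.IsSolvable G → U ≤ G →
    A ≤ Subgroup.normalizer (U : Set X) → PiNum π (Nat.card U) →
    ∃ H, IsPiHallOf π H G ∧ A ≤ Subgroup.normalizer (H : Set X) ∧ U ≤ H := by
  induction n using Nat.strong_induction_on with
  | _ n ih =>
  intro X _ _ A G U hn hAG hcop hsolv hUG hAU hUπ
  by_cases hG0 : G = ⊥
  · subst hG0
    refine ⟨⊥, ⟨le_rfl, ?_, ?_⟩, le_normalizer_bot, hUG⟩
    · rw [Subgroup.card_bot]; exact piNum_one π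
    · rw [Subgroup.relIndex_self]; exact piPrimeNum_one π
  have hnt : Nontrivial ↥G := (Subgroup.nontrivial_iff_ne_bot G).mpr hG0
  obtain ⟨q, M, hq, hMn, hMq, hM0⟩ := Cfsg.Agent.Lib.Helper52.exists_normal_pGroup ↥G
  have : Fact q.Prime := ⟨hq⟩
  set N : Subgroup X := (pCore q ↥G).map G.subtype with hN
  have hN0 : N ≠ ⊥ := by
    intro h
    rw [hN, Subgroup.map_eq_bot_iff_of_injective _ G.subtype_injective] at h
    apply hM0
    rw [← le_bot_iff, ← h]
    exact le_pCore hMn hMq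
  have hNG : N ≤ G := Subgroup.map_subtype_le _
  have hNN : Subgroup.normalizer (G : Set X) ≤ Subgroup.normalizer (N : Set X) :=
    normalizer_le_normalizer_pCore q G
  have hGN : G ≤ Subgroup.normalizer (N : Set X) := Subgroup.le_normalizer.trans hNN
  have hAN : A ≤ Subgroup.normalizer (N : Set X) := hAG.trans hNN
  obtain ⟨k, hk⟩ := IsPGroup.iff_card.mp (pCore_map_subtype_isPGroup q G)
  rw [← hN] at hk
  have hcG := card_bar_mul hGN hNG
  have hlt : Nat.card (bar N G) < n := by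
    rw [← hn, ← hcG]
    exact lt_mul_of_one_lt_right Nat.card_pos ((Subgroup.one_lt_card_iff_ne_bot N).mpr hN0)
  obtain ⟨Hb, hHb, hAHb, hUHb⟩ := ih _ hlt (Sec N) (bar N A) (bar N G) (bar N U) rfl
    (bar_le_normalizer hAG) (Nat.Coprime.of_dvd (card_bar_dvd N A) (card_bar_dvd N G) hcop)
    (isSolvable_bar hsolv) (bar_mono hUG) (bar_le_normalizer hAU)
    (hUπ.of_dvd (card_bar_dvd N U))
  set H₁ : Subgroup X := unbar N Hb with hH₁
  have hNH₁ : N ≤ H₁ := le_unbar Hb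
  have hH₁N : H₁ ≤ Subgroup.normalizer (N : Set X) := unbar_le_normalizer Hb
  have hH₁G : H₁ ≤ G := by
    rw [← unbar_bar hGN hNG]
    exact unbar_mono hHb.1
  have hbH₁ : bar N H₁ = Hb := bar_unbar Hb
  have hUH₁ : U ≤ H₁ := le_of_bar_le_bar (hUG.trans hGN) hNH₁ (hbH₁.symm ▸ hUHb)
  have hAH₁ : A ≤ Subgroup.normalizer (H₁ : Set X) :=
    le_normalizer_of_bar_le_normalizer hAN hH₁N hNH₁ (hbH₁.symm ▸ hAHb)
  have hcH₁ : Nat.card H₁ = Nat.card Hb * Nat.card N := card_unbar Hb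
  have hrel : H₁.relIndex G = Hb.relIndex (bar N G) := by
    have h1 := relIndex_mul_card hH₁G
    have h2 := relIndex_mul_card hHb.1
    rw [hcH₁, ← hcG, ← h2, ← mul_assoc] at h1
    exact Nat.eq_of_mul_eq_mul_right Nat.card_pos (Nat.eq_of_mul_eq_mul_right Nat.card_pos h1)
  have hrel' : PiPrimeNum π (H₁.relIndex G) := hrel ▸ hHb.2.2
  by_cases hqπ : q ∈ π
  · refine ⟨H₁, ⟨hH₁G, ?_, hrel'⟩, hAH₁, hUH₁⟩
    rw [hcH₁, hk]
    exact PiNum.mul hHb.2.1 (piNum_prime_pow hq hqπ k)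
  · obtain ⟨K, hK, hAK, hUK⟩ := invariant_le_hall_of_normal_compl A H₁ N U π hAH₁
      (Nat.Coprime.coprime_dvd_right (Subgroup.card_dvd_of_le hH₁G) hcop)
      (isSolvable_of_le hH₁G hsolv) hNH₁ hH₁N hAN (hk ▸ piPrimeNum_prime_pow hq hqπ k)
      (by
        have h1 := relIndex_mul_card hNH₁
        rw [hcH₁] at h1
        rw [Nat.eq_of_mul_eq_mul_right Nat.card_pos h1]
        exact hHb.2.1) hUH₁ hAU hUπ
    exact ⟨K, IsPiHallOf.trans hK hH₁G hrel', hAK, hUK⟩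

end Cfsg.Agent.Lib.Helper62
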