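import Mathlib

/-!
# Groups generated by two quadratic elements: the unipotent case
-/

set_option autoImplicit false

namespace Cfsg.Agent.Lib.Helper62

variable {K : Type*} [Field K] {W : Type*} [AddCommGroup W] [Module K W]

/-- the filtration `V (j+1) = A V j + B V j` -/
def quadFilt (A B : Module.End K W) : ℕ → Submodule K W
  | 0 => ⊤
  | j + 1 => (quadFilt A B j).map A ⊔ (quadFilt A B j).map B

theorem quadFilt_succ (A B : Module.End K W) (j : ℕ) :
    quadFilt A B (j + 1) = (quadFilt A B j).map A ⊔ (quadFilt A B j).map B := rfl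

theorem quadFilt_anti (A B : Module.End K W) (j : ℕ) : quadFilt A B (j + 1) ≤ quadFilt A B j := by
  induction j with
  | zero => exact le_top
  | succ j ih =>
    rw [quadFilt_succ A B (j + 1), quadFilt_succ A B j]
    exact sup_le_sup (Submodule.map_mono ih) (Submodule.map_mono ih)

theorem mem_quadFilt_left {A B : Module.End K W} {j : ℕ} {w : W} (hw : w ∈ quadFilt A B j) :
    A w ∈ quadFilt A B (j + 1) :=
  Submodule.mem_sup_left (Submodule.mem_map_of_mem hw)

theorem mem_quadFilt_right {A B : Module.End K W} {j : ℕ} {w : W} (hw : w ∈ quadFilt A B j) :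
    B w ∈ quadFilt A B (j + 1) :=
  Submodule.mem_sup_right (Submodule.mem_map_of_mem hw)

theorem quadFilt_step {A B : Module.End K W} (hA : A * A = 0) (hB : B * B = 0) (j : ℕ) :
    quadFilt A B (j + 3) ≤ (quadFilt A B (j + 1)).map (A * B + B * A) := by
  have hAA : ∀ x, A (A x) = 0 := fun x => by
    have := LinearMap.congr_fun hA x
    simpa using this
  have hBB : ∀ x, B (B x) = 0 := fun x => by
    have := LinearMap.congr_fun hB x
    simpa using this
  have key1 : ∀ u ∈ quadFilt A B (j + 1), A (B u) ∈ (quadFilt A B (j + 1)).map (A * B + B * A) := by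
    intro u hu
    have hle : quadFilt A B (j + 1) ≤
        ((quadFilt A B (j + 1)).map (A * B + B * A)).comap (A * B) := by
      rw [quadFilt_succ A B j, sup_le_iff, Submodule.map_le_iff_le_comap, Submodule.map_le_iff_le_comap]
      constructor
      · intro x hx
        rw [Submodule.mem_comap, Submodule.mem_comap]
        refine ⟨A x, mem_quadFilt_left hx, ?_⟩
        simp [hAA]
      · intro x hx
        rw [Submodule.mem_comap, Submodule.mem_comap]
        simp [hBB]
    exact hle hu
  have key2 : ∀ u ∈ quadFilt A B (j + 1), B (A u) ∈ (quadFilt A B (j + 1)).map (A * B + B * A) := by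
    intro u hu
    have hle : quadFilt A B (j + 1) ≤
        ((quadFilt A B (j + 1)).map (A * B + B * A)).comap (B * A) := by
      rw [quadFilt_succ A B j, sup_le_iff, Submodule.map_le_iff_le_comap, Submodule.map_le_iff_le_comap]
      constructor
      · intro x hx
        rw [Submodule.mem_comap, Submodule.mem_comap]
        simp [hAA]
      · intro x hx
        rw [Submodule.mem_comap, Submodule.mem_comap]
        refine ⟨B x, mem_quadFilt_right hx, ?_⟩
        simp [hBB]
    exact hle hu
  rw [quadFilt_succ A B (j + 2), sup_le_iff, Submodule.map_le_iff_le_comap, Submodule.map_le_iff_le_comap,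
    quadFilt_succ A B (j + 1), sup_le_iff, sup_le_iff, Submodule.map_le_iff_le_comap,
    Submodule.map_le_iff_le_comap, Submodule.map_le_iff_le_comap, Submodule.map_le_iff_le_comap]
  refine ⟨⟨?_, ?_⟩, ⟨?_, ?_⟩⟩
  · intro x _
    rw [Submodule.mem_comap, Submodule.mem_comap, hAA]
    exact Submodule.zero_mem _
  · intro x hx
    rw [Submodule.mem_comap, Submodule.mem_comap]
    exact key1 x hx
  · intro x hx
    rw [Submodule.mem_comap, Submodule.mem_comap]
    exact key2 x hx
  · intro x _
    rw [Submodule.mem_comap, Submodule.mem_comap, hBB]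
    exact Submodule.zero_mem _

theorem quadFilt_pow {A B : Module.End K W} (hA : A * A = 0) (hB : B * B = 0) (m : ℕ) :
    quadFilt A B (2 * m + 1) ≤ (quadFilt A B 1).map ((A * B + B * A) ^ m) := by
  induction m with
  | zero =>
    rw [pow_zero]
    exact (Submodule.map_id _).ge
  | succ m ih =>
    have h1 : 2 * (m + 1) + 1 = 2 * m + 3 := by ring
    rw [h1]
    refine (quadFilt_step hA hB (2 * m)).trans ?_
    refine (Submodule.map_mono ih).trans ?_
    rw [pow_succ', ← Submodule.map_comp]
    rfl

theorem quadFilt_eq_bot {A B : Module.End K W} (hA : A * A = 0) (hB : B * B = 0) {m : ℕ}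
    (hl : (A * B + B * A) ^ m = 0) : quadFilt A B (2 * m + 1) = ⊥ := by
  rw [eq_bot_iff]
  refine (quadFilt_pow hA hB m).trans ?_
  rw [hl]
  exact (Submodule.map_zero _).le

/-- `a - 1` as an endomorphism -/
def subOne (a : W ≃ₗ[K] W) : Module.End K W := (a : W →ₗ[K] W) - 1

theorem subOne_apply (a : W ≃ₗ[K] W) (w : W) : subOne a w = a w - w := rfl

theorem subOne_sq {a : W ≃ₗ[K] W} (ha : ∀ w : W, a (a w - w) = a w - w) : subOne a * subOne a = 0 := by
  ext w
  rw [Module.End.mul_apply, subOne_apply, subOne_apply, ha, sub_self]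
  rfl

theorem quad_inv_apply {a : W ≃ₗ[K] W} (ha : ∀ w : W, a (a w - w) = a w - w) (w : W) :
    a⁻¹ w - w = - (a w - w) := by
  have h1 : a⁻¹ (a w - w) = a w - w := by
    rw [LinearEquiv.coe_inv, LinearEquiv.symm_apply_eq, ha]
  have h2 : a⁻¹ (a w - w) = w - a⁻¹ w := by
    rw [map_sub]
    congr 1
    exact a.symm_apply_apply w
  rw [h2] at h1
  rw [← h1]
  abel

theorem quad_stab {a b : W ≃ₗ[K] W} (ha : ∀ w : W, a (a w - w) = a w - w)
    (hb : ∀ w : W, b (b w - w) = b w - w) {h : W ≃ₗ[K] W} (hh : h ∈ Subgroup.closure {a, b}) (j : ℕ)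
    (w : W) (hw : w ∈ quadFilt (subOne a) (subOne b) j) :
    h w - w ∈ quadFilt (subOne a) (subOne b) (j + 1) := by
  have hh' : h ∈ Submonoid.closure (({a, b} : Set (W ≃ₗ[K] W)) ∪ ({a, b} : Set (W ≃ₗ[K] W))⁻¹) := by
    rw [← Subgroup.closure_toSubmonoid]
    exact hh
  clear hh
  induction hh' using Submonoid.closure_induction generalizing w with
  | mem x hx =>
    rcases hx with (rfl | rfl) | hx
    · exact mem_quadFilt_left hw
    · exact mem_quadFilt_right hw
    · rw [Set.mem_inv] at hx
      rcases hx with hx | hx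
      · have hx' : x = a⁻¹ := by rw [← hx, inv_inv]
        rw [hx', quad_inv_apply ha]
        exact Submodule.neg_mem _ (mem_quadFilt_left hw)
      · have hx' : x = b⁻¹ := by
          have : x⁻¹ = b := hx
          rw [← this, inv_inv]
        rw [hx', quad_inv_apply hb]
        exact Submodule.neg_mem _ (mem_quadFilt_right hw)
  | one =>
    rw [LinearEquiv.coe_one, id, sub_self]
    exact Submodule.zero_mem _
  | mul x y _ _ hx hy =>
    have h1 := hy w hw
    have h2 : y w ∈ quadFilt (subOne a) (subOne b) j := by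
      have := Submodule.add_mem _ (quadFilt_anti _ _ j h1) hw
      rwa [sub_add_cancel] at this
    have h3 := hx (y w) h2
    have h4 := Submodule.add_mem _ h3 h1
    rw [LinearEquiv.mul_apply]
    convert h4 using 1
    abel

theorem quad_pow_mem {a b : W ≃ₗ[K] W} (ha : ∀ w : W, a (a w - w) = a w - w)
    (hb : ∀ w : W, b (b w - w) = b w - w) {h : W ≃ₗ[K] W} (hh : h ∈ Subgroup.closure {a, b}) (j : ℕ)
    (w : W) : (subOne h ^ j) w ∈ quadFilt (subOne a) (subOne b) j := by
  induction j with
  | zero => exact Submodule.mem_top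
  | succ j ih =>
    rw [pow_succ', Module.End.mul_apply, subOne_apply]
    exact quad_stab ha hb hh j _ ih

/-- the monoid homomorphism to the endomorphism ring -/
theorem coe_pow_eq (h : W ≃ₗ[K] W) (n : ℕ) :
    ((h ^ n : W ≃ₗ[K] W) : W →ₗ[K] W) = ((h : W →ₗ[K] W) : Module.End K W) ^ n :=
  map_pow (LinearEquiv.automorphismGroup.toLinearMapMonoidHom (R := K) (M := W)) h n

theorem pow_eq_one_of_subOne_nilpotent [Nontrivial W] (p : ℕ) [Fact p.Prime] [CharP K p]
    {h : W ≃ₗ[K] W} {N : ℕ} (hN : subOne h ^ N = 0) : h ^ (p ^ N) = 1 := by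
  haveI : CharP (Module.End K W) p :=
    charP_of_injective_algebraMap (algebraMap K (Module.End K W)).injective p
  have h1 : subOne h ^ (p ^ N) = 0 :=
    pow_eq_zero_of_le (Nat.lt_pow_self (Fact.out : p.Prime).one_lt).le hN
  have h2 : ((h : W →ₗ[K] W) : Module.End K W) ^ (p ^ N) = 1 := by
    have h3 : ((h : W →ₗ[K] W) : Module.End K W) = subOne h + 1 := by
      unfold subOne; abel
    rw [h3, add_pow_char_pow_of_commute p N (Commute.one_right _), h1, one_pow, zero_add]
  rw [← coe_pow_eq] at h2
  ext w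
  exact LinearMap.congr_fun h2 w

/-- If `AB + BA` is nilpotent then `⟨a, b⟩` is a `p`-group. -/
theorem isPGroup_closure_of_nilpotent [Nontrivial W] (p : ℕ) [Fact p.Prime] [CharP K p]
    {a b : W ≃ₗ[K] W} (ha : ∀ w : W, a (a w - w) = a w - w) (hb : ∀ w : W, b (b w - w) = b w - w) {m : ℕ}
    (hl : (subOne a * subOne b + subOne b * subOne a) ^ m = 0) :
    IsPGroup p (Subgroup.closure {a, b}) := by
  have hbot := quadFilt_eq_bot (subOne_sq ha) (subOne_sq hb) hl
  intro h
  refine ⟨2 * m + 1, ?_⟩
  apply Subtype.ext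
  apply pow_eq_one_of_subOne_nilpotent p
  ext w
  have := quad_pow_mem ha hb h.2 (2 * m + 1) w
  rw [hbot, Submodule.mem_bot] at this
  exact this

end Cfsg.Agent.Lib.Helper62
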