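import Mathlib
import Cfsg.Agent.Lib.Helper62.QuadGen

/-!
# Groups generated by two quadratic elements: eigenvectors and the map to `SL₂`
-/

set_option autoImplicit false

namespace Cfsg.Agent.Lib.Helper62

open Polynomial Matrix

variable {K : Type*} [Field K] {W : Type*} [AddCommGroup W] [Module K W]

theorem anticomm_mul_eq {A B : Module.End K W} (hA : A * A = 0) (hB : B * B = 0) :
    (A * B + B * A) * ((A + 1) * (B + 1)) = ((A + 1) * (B + 1) - 1) * ((A + 1) * (B + 1) - 1) := by
  have hAA : ∀ x : Module.End K W, A * (A * x) = 0 := fun x => by rw [← mul_assoc, hA, zero_mul]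
  have hBB : ∀ x : Module.End K W, B * (B * x) = 0 := fun x => by rw [← mul_assoc, hB, zero_mul]
  have e1 : (A + 1) * (B + 1) - 1 = A * B + A + B := by
    simp only [mul_add, add_mul, mul_one, one_mul]; abel
  have e2 : (A + 1) * (B + 1) = A * B + A + B + 1 := by
    simp only [mul_add, add_mul, mul_one, one_mul]; abel
  rw [e1, e2]
  simp only [mul_add, add_mul, mul_one, mul_assoc, hAA, hA, hB, mul_zero, add_zero, zero_add]
  abel

theorem anticomm_commute {A B : Module.End K W} (hA : A * A = 0) (hB : B * B = 0) :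
    Commute (A * B + B * A) ((A + 1) * (B + 1)) := by
  have hAA : ∀ x : Module.End K W, A * (A * x) = 0 := fun x => by rw [← mul_assoc, hA, zero_mul]
  have hBB : ∀ x : Module.End K W, B * (B * x) = 0 := fun x => by rw [← mul_assoc, hB, zero_mul]
  have h1 : Commute (A * B + B * A) A := by
    show (A * B + B * A) * A = A * (A * B + B * A)
    simp only [mul_add, add_mul, mul_assoc, hAA, hA, mul_zero, add_zero, zero_add]
  have h2 : Commute (A * B + B * A) B := by
    show (A * B + B * A) * B = B * (A * B + B * A)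
    simp only [mul_add, add_mul, mul_assoc, hBB, hB, mul_zero, add_zero, zero_add]
  exact (h1.add_right (Commute.one_right _)).mul_right (h2.add_right (Commute.one_right _))

theorem coe_eq_subOne_add_one (a : W ≃ₗ[K] W) : ((a : W →ₗ[K] W) : Module.End K W) = subOne a + 1 := by
  unfold subOne; abel

theorem anticomm_nilpotent_of_subOne_mul {a b : W ≃ₗ[K] W} (ha : ∀ w : W, a (a w - w) = a w - w)
    (hb : ∀ w : W, b (b w - w) = b w - w) {n : ℕ} (hn : subOne (a * b) ^ n = 0) :
    (subOne a * subOne b + subOne b * subOne a) ^ n = 0 := by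
  have hA := subOne_sq ha
  have hB := subOne_sq hb
  have hc : (((a * b : W ≃ₗ[K] W) : W →ₗ[K] W) : Module.End K W) = (subOne a + 1) * (subOne b + 1) := by
    rw [← coe_eq_subOne_add_one, ← coe_eq_subOne_add_one]
    rfl
  have hs : subOne (a * b) = (subOne a + 1) * (subOne b + 1) - 1 := by
    rw [← hc]; rfl
  have h1 := anticomm_mul_eq hA hB
  rw [← hs] at h1
  have h2 : ((subOne a * subOne b + subOne b * subOne a) * ((subOne a + 1) * (subOne b + 1))) ^ n = 0 := by
    rw [h1, (Commute.refl _).mul_pow, hn, zero_mul]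
  rw [(anticomm_commute hA hB).mul_pow, ← hc, ← coe_pow_eq] at h2
  have h3 : ((((a * b) ^ n : W ≃ₗ[K] W) : W →ₗ[K] W) : Module.End K W) *
      (((((a * b) ^ n)⁻¹ : W ≃ₗ[K] W) : W →ₗ[K] W) : Module.End K W) = 1 := by
    ext w
    exact ((a * b) ^ n).apply_symm_apply w
  calc (subOne a * subOne b + subOne b * subOne a) ^ n
      = (subOne a * subOne b + subOne b * subOne a) ^ n *
        (((((a * b) ^ n : W ≃ₗ[K] W) : W →ₗ[K] W) : Module.End K W) *
      (((((a * b) ^ n)⁻¹ : W ≃ₗ[K] W) : W →ₗ[K] W) : Module.End K W)) := by rw [h3, mul_one]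
    _ = 0 := by rw [← mul_assoc, h2, zero_mul]

theorem prod_X_sub_C_univ (K : Type*) [Field K] [Fintype K] :
    ∏ μ : K, (X - C μ) = (X ^ Fintype.card K - X : K[X]) := by
  have hdeg : (X ^ Fintype.card K - X : K[X]).natDegree = Fintype.card K :=
    FiniteField.X_pow_card_sub_X_natDegree_eq K Fintype.one_lt_card
  have hmonic : (X ^ Fintype.card K - X : K[X]).Monic := by
    apply Polynomial.monic_X_pow_sub
    rw [degree_X]
    exact_mod_cast Fintype.one_lt_card
  have h := Polynomial.prod_multiset_X_sub_C_of_monic_of_roots_card_eq hmonic (by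
    rw [FiniteField.roots_X_pow_card_sub_X, hdeg]; rfl)
  rw [FiniteField.roots_X_pow_card_sub_X] at h
  exact h

theorem exists_ker_of_pow {f : Module.End K W} {n : ℕ} {v : W} (hv : v ≠ 0) (h : (f ^ n) v = 0) :
    ∃ v' : W, v' ≠ 0 ∧ f v' = 0 := by
  induction n generalizing v with
  | zero => exact absurd h hv
  | succ n ih =>
    by_cases h0 : f v = 0
    · exact ⟨v, hv, h0⟩
    · rw [pow_succ, Module.End.mul_apply] at h
      exact ih h0 h

theorem exists_eigen_of_prod [DecidableEq K] (d : Module.End K W) (s : Finset K) {w : W} (hw : w ≠ 0)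
    (h : aeval d (∏ μ ∈ s, (X - C μ)) w = 0) : ∃ μ ∈ s, ∃ v : W, v ≠ 0 ∧ d v = μ • v := by
  induction s using Finset.induction_on with
  | empty =>
    rw [Finset.prod_empty, map_one] at h
    exact absurd h hw
  | insert μ₀ s hμ ih =>
    rw [Finset.prod_insert hμ, map_mul, Module.End.mul_apply] at h
    by_cases h0 : aeval d (∏ μ ∈ s, (X - C μ)) w = 0
    · obtain ⟨μ, hμs, v, hv⟩ := ih h0
      exact ⟨μ, Finset.mem_insert_of_mem hμs, v, hv⟩
    · refine ⟨μ₀, Finset.mem_insert_self _ _, _, h0, ?_⟩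
      rw [map_sub, aeval_X, aeval_C, LinearMap.sub_apply, Module.algebraMap_end_apply, sub_eq_zero] at h
      exact h

theorem exists_eigen_ne_one [Fintype K] (d : Module.End K W) (hd : d ^ Fintype.card K = d) (hd1 : d ≠ 1) :
    ∃ μ : K, μ ≠ 1 ∧ ∃ v : W, v ≠ 0 ∧ d v = μ • v := by
  classical
  obtain ⟨w₀, hw₀⟩ : ∃ w₀, d w₀ - w₀ ≠ 0 := by
    by_contra hcon
    push Not at hcon
    apply hd1
    ext w
    exact sub_eq_zero.1 (hcon w)
  have h1 : aeval d (∏ μ ∈ (Finset.univ.erase (1 : K)), (X - C μ)) (d w₀ - w₀) = 0 := by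
    have h2 : aeval d ((∏ μ ∈ (Finset.univ.erase (1 : K)), (X - C μ)) * (X - C 1)) w₀ = 0 := by
      rw [Finset.prod_erase_mul _ _ (Finset.mem_univ _), prod_X_sub_C_univ, map_sub, map_pow, aeval_X, hd,
        sub_self]
      rfl
    rw [map_mul, Module.End.mul_apply, map_sub, aeval_X, aeval_C, LinearMap.sub_apply,
      Module.algebraMap_end_apply, one_smul] at h2
    exact h2
  obtain ⟨μ, hμ, v, hv⟩ := exists_eigen_of_prod d _ hw₀ h1
  exact ⟨μ, (Finset.mem_erase.1 hμ).1, v, hv⟩

theorem exists_eigenvector_of_not_unipotent [Fintype K] [Nontrivial W] (p : ℕ) [Fact p.Prime] [CharP K p]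
    {c : W ≃ₗ[K] W} {e : ℕ} (hc : c ^ (p ^ e * (Fintype.card K - 1)) = 1)
    (hnil : ∀ n, subOne c ^ n ≠ 0) : ∃ l : K, l ≠ 1 ∧ ∃ v : W, v ≠ 0 ∧ c v = l • v := by
  have : CharP (Module.End K W) p :=
    charP_of_injective_algebraMap (algebraMap K (Module.End K W)).injective p
  obtain ⟨γ, hγ⟩ : ∃ γ : Module.End K W, γ = (c : W →ₗ[K] W) := ⟨_, rfl⟩
  have hq : Fintype.card K - 1 + 1 = Fintype.card K := Nat.sub_add_cancel Fintype.card_pos
  have hd : (γ ^ p ^ e) ^ Fintype.card K = γ ^ p ^ e := by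
    rw [← hq, pow_succ, ← pow_mul, hγ, ← coe_pow_eq, hc]
    exact one_mul _
  have hd1 : γ ^ p ^ e ≠ 1 := by
    intro h1
    apply hnil (p ^ e)
    have : subOne c = γ - 1 := by rw [hγ]; rfl
    rw [this, sub_pow_char_pow_of_commute p e (Commute.one_right _), h1, one_pow, sub_self]
  obtain ⟨μ, hμ, v, hv, hdv⟩ := exists_eigen_ne_one _ hd hd1
  obtain ⟨l, hl⟩ : ∃ l : K, l ^ p ^ e = μ := by
    have hinj : Function.Injective (iterateFrobenius K p e) := (iterateFrobenius K p e).injective
    obtain ⟨l, hl⟩ := (Finite.injective_iff_surjective.1 hinj) μ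
    exact ⟨l, by rw [← hl, iterateFrobenius_def]⟩
  have h2 : ((γ - algebraMap K _ l) ^ p ^ e) v = 0 := by
    rw [sub_pow_char_pow_of_commute p e (Algebra.commutes l γ).symm, ← map_pow, hl, LinearMap.sub_apply,
      Module.algebraMap_end_apply, hdv, sub_self]
  obtain ⟨v', hv', h3⟩ := exists_ker_of_pow hv h2
  refine ⟨l, ?_, v', hv', ?_⟩
  · rintro rfl
    apply hμ
    rw [← hl, one_pow]
  · rw [LinearMap.sub_apply, Module.algebraMap_end_apply, sub_eq_zero, hγ] at h3
    exact h3

theorem quad_eigen_eq_one {a : W ≃ₗ[K] W} (ha : ∀ w : W, a (a w - w) = a w - w) {ν : K} {v : W}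
    (hv : v ≠ 0) (h : a v = ν • v) : ν = 1 := by
  have h1 := ha v
  rw [h] at h1
  have h2 : ν • v - v = (ν - 1) • v := by rw [sub_smul, one_smul]
  rw [h2, map_smul, h, smul_smul] at h1
  have h3 : ((ν - 1) * ν - (ν - 1)) • v = 0 := by rw [sub_smul, h1, sub_self]
  have h4 : (ν - 1) * ν - (ν - 1) = 0 := (smul_eq_zero.1 h3).resolve_right hv
  have h5 : (ν - 1) * (ν - 1) = 0 := by rw [← h4]; ring
  exact sub_eq_zero.1 (mul_self_eq_zero.1 h5)

/-- the coordinate map -/
def pairMap (v w : W) (x : Fin 2 → K) : W := x 0 • v + x 1 • w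

theorem pairMap_injective {v w : W} (hli : ∀ s t : K, s • v + t • w = 0 → s = 0 ∧ t = 0) :
    Function.Injective (pairMap (K := K) v w) := by
  intro x y hxy
  unfold pairMap at hxy
  have h1 : (x 0 - y 0) • v + (x 1 - y 1) • w = 0 := by
    rw [sub_smul, sub_smul]
    have : x 0 • v - y 0 • v + (x 1 • w - y 1 • w) = (x 0 • v + x 1 • w) - (y 0 • v + y 1 • w) := by abel
    rw [this, hxy, sub_self]
  obtain ⟨h2, h3⟩ := hli _ _ h1
  ext i
  fin_cases i
  · exact sub_eq_zero.1 h2
  · exact sub_eq_zero.1 h3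

theorem exists_hom_SL2 (p : ℕ) [Fact p.Prime] [CharP K p] {a b : W ≃ₗ[K] W}
    (ha : ∀ w : W, a (a w - w) = a w - w) (hb : ∀ w : W, b (b w - w) = b w - w) {l : K} (hl : l ≠ 1)
    {v : W} (hv : v ≠ 0) (hev : (a * b) v = l • v) :
    ∃ φ : Subgroup.closure {a, b} →* Matrix.SpecialLinearGroup (Fin 2) K, ¬ IsPGroup p φ.range := by
  obtain ⟨w, hw⟩ : ∃ w, w = b v := ⟨_, rfl⟩
  have haw : a w = l • v := by rw [hw]; exact hev
  have hl0 : l ≠ 0 := by
    rintro rfl
    rw [zero_smul] at hev
    exact hv ((LinearEquiv.map_eq_zero_iff _).1 hev)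
  have hbw : b w = (2 : K) • w - v := by
    have := hb v
    rw [map_sub, ← hw] at this
    rw [two_smul]
    rw [sub_eq_iff_eq_add] at this
    rw [this]; abel
  have hav : a v = (2 : K) • v - l⁻¹ • w := by
    have := ha w
    rw [map_sub, haw, map_smul] at this
    have h2 : l • a v = (2 * l) • v - w := by
      rw [sub_eq_iff_eq_add] at this
      rw [this, mul_smul, two_smul]; abel
    calc a v = l⁻¹ • (l • a v) := by rw [smul_smul, inv_mul_cancel₀ hl0, one_smul]
      _ = (2 : K) • v - l⁻¹ • w := by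
        rw [h2, smul_sub, smul_smul]
        congr 2
        field_simp
  have hli : ∀ s t : K, s • v + t • w = 0 → s = 0 ∧ t = 0 := by
    intro s t hst
    by_cases ht : t = 0
    · subst ht
      rw [zero_smul, add_zero] at hst
      exact ⟨(smul_eq_zero.1 hst).resolve_right hv, rfl⟩
    · exfalso
      have h1 : w = (-(t⁻¹ * s)) • v := by
        have h2 : t • w = -(s • v) := eq_neg_of_add_eq_zero_right hst
        calc w = t⁻¹ • (t • w) := by rw [smul_smul, inv_mul_cancel₀ ht, one_smul]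
          _ = (-(t⁻¹ * s)) • v := by rw [h2, smul_neg, smul_smul, neg_smul]
      have h3 := quad_eigen_eq_one hb hv (hw ▸ h1)
      rw [h3, one_smul] at h1
      rw [h1] at haw
      exact hl (quad_eigen_eq_one ha hv haw)
  have hT := pairMap_injective hli
  have hex : ∀ h ∈ Subgroup.closure {a, b}, ∃ M : Matrix.SpecialLinearGroup (Fin 2) K,
      ∀ x, h (pairMap v w x) = pairMap v w ((M : Matrix (Fin 2) (Fin 2) K) *ᵥ x) := by
    intro h hh
    induction hh using Subgroup.closure_induction with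
    | mem y hy =>
      rcases hy with rfl | rfl
      · refine ⟨⟨!![2, l; -l⁻¹, 0], by rw [Matrix.det_fin_two_of]; field_simp; ring⟩, ?_⟩
        intro x
        unfold pairMap
        rw [map_add, map_smul, map_smul, hav, haw]
        simp only [Matrix.mulVec, dotProduct, Fin.sum_univ_two, Matrix.of_apply, Matrix.cons_val_zero,
          Matrix.cons_val_one, Matrix.cons_val', Matrix.cons_val_fin_one]
        simp only [smul_sub, smul_smul, add_smul, neg_mul, neg_smul, zero_mul, add_zero]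
        rw [mul_comm (x 0) 2, mul_comm (x 0) l⁻¹, mul_comm (x 1) l]
        abel
      · refine ⟨⟨!![0, -1; 1, 2], by rw [Matrix.det_fin_two_of]; ring⟩, ?_⟩
        intro x
        unfold pairMap
        rw [map_add, map_smul, map_smul, ← hw, hbw]
        simp only [Matrix.mulVec, dotProduct, Fin.sum_univ_two, Matrix.of_apply, Matrix.cons_val_zero,
          Matrix.cons_val_one, Matrix.cons_val', Matrix.cons_val_fin_one]
        simp only [smul_sub, smul_smul, add_smul, neg_mul, neg_smul, zero_mul, zero_add, one_mul]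
        rw [mul_comm (x 1) 2]
        abel
    | one => exact ⟨1, fun x => by rw [Matrix.SpecialLinearGroup.coe_one, Matrix.one_mulVec]; rfl⟩
    | mul y z _ _ hy hz =>
      obtain ⟨M, hM⟩ := hy
      obtain ⟨M', hM'⟩ := hz
      refine ⟨M * M', fun x => ?_⟩
      rw [LinearEquiv.mul_apply, hM', hM, Matrix.mulVec_mulVec, Matrix.SpecialLinearGroup.coe_mul]
    | inv y _ hy =>
      obtain ⟨M, hM⟩ := hy
      refine ⟨M⁻¹, fun x => ?_⟩
      rw [LinearEquiv.coe_inv, LinearEquiv.symm_apply_eq, hM, Matrix.mulVec_mulVec,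
        ← Matrix.SpecialLinearGroup.coe_mul, mul_inv_cancel, Matrix.SpecialLinearGroup.coe_one,
        Matrix.one_mulVec]
  have huniq : ∀ M M' : Matrix.SpecialLinearGroup (Fin 2) K,
      (∀ x, pairMap v w ((M : Matrix (Fin 2) (Fin 2) K) *ᵥ x) =
        pairMap v w ((M' : Matrix (Fin 2) (Fin 2) K) *ᵥ x)) → M = M' := by
    intro M M' h
    apply Subtype.ext
    apply Matrix.ext_of_mulVec_single
    intro i
    exact hT (h _)
  choose f hf using hex
  let φ : Subgroup.closure {a, b} →* Matrix.SpecialLinearGroup (Fin 2) K :=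
    MonoidHom.mk' (fun h => f h.1 h.2) (by
      intro h h'
      apply huniq
      intro x
      rw [← hf, Matrix.SpecialLinearGroup.coe_mul, ← Matrix.mulVec_mulVec, ← hf, ← hf]
      rfl)
  refine ⟨φ, ?_⟩
  intro hP
  have hab : a * b ∈ Subgroup.closure {a, b} :=
    Subgroup.mul_mem _ (Subgroup.subset_closure (by simp)) (Subgroup.subset_closure (by simp))
  obtain ⟨n, hn⟩ := hP ⟨φ ⟨a * b, hab⟩, ⟨_, rfl⟩⟩
  have hn' : φ (⟨a * b, hab⟩ ^ p ^ n) = 1 := by
    rw [map_pow]
    exact congrArg Subtype.val hn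
  have h1 : ((a * b) ^ p ^ n) v = v := by
    have h2 := hf ((a * b) ^ p ^ n) (Subgroup.pow_mem _ hab _) ![1, 0]
    have h3 : f ((a * b) ^ p ^ n) (Subgroup.pow_mem _ hab _) = 1 := hn'
    rw [h3, Matrix.SpecialLinearGroup.coe_one, Matrix.one_mulVec] at h2
    have h4 : pairMap v w ![(1 : K), 0] = v := by
      unfold pairMap
      simp
    rwa [h4] at h2
  have h5 : ∀ m : ℕ, ((a * b) ^ m) v = l ^ m • v := by
    intro m
    induction m with
    | zero => simp
    | succ m ih =>
      rw [pow_succ, LinearEquiv.mul_apply, hev, map_smul, ih, smul_smul, pow_succ, mul_comm]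
  rw [h5] at h1
  have h6 : l ^ p ^ n = 1 := by
    have : (l ^ p ^ n - 1) • v = 0 := by rw [sub_smul, h1, one_smul, sub_self]
    exact sub_eq_zero.1 ((smul_eq_zero.1 this).resolve_right hv)
  apply hl
  have h7 : (l - 1) ^ p ^ n = 0 := by rw [sub_pow_char_pow, h6, one_pow, sub_self]
  exact sub_eq_zero.1 ((pow_eq_zero_iff (pow_ne_zero _ (Fact.out : p.Prime).ne_zero)).1 h7)

end Cfsg.Agent.Lib.Helper62
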