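import Mathlib
import Cfsg.Agent.Lib.Helper62.SL25
import Cfsg.Agent.S0215
import Cfsg.Agent.S0493
import Cfsg.Agent.S0494

/-!
# Non-solvable groups of order 120 with quaternion Sylow 2-subgroups
-/

set_option autoImplicit false

namespace Cfsg.Agent.Lib.Helper62

universe u

open scoped commutatorElement

theorem exists_normal_of_not_simple' {G : Type u} [Group G] [Nontrivial G]
    (h : ¬ IsSimpleGroup G) : ∃ N : Subgroup G, N.Normal ∧ N ≠ ⊥ ∧ N ≠ ⊤ := by
  by_contra hcon
  push Not at hcon
  refine h ⟨fun N hN => ?_⟩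
  by_cases hb : N = ⊥
  · exact Or.inl hb
  · exact Or.inr (hcon N hN hb)

/-- a proper nontrivial normal subgroup has smaller order and index -/
theorem card_lt_of_normal {G : Type u} [Group G] [Finite G] (N : Subgroup G) (hb : N ≠ ⊥) (ht : N ≠ ⊤) :
    Nat.card N < Nat.card G ∧ N.index < Nat.card G := by
  have hmul := N.card_mul_index
  have h1 : Nat.card N ≠ 1 := by
    intro h; exact hb (Subgroup.card_eq_one.mp h)
  have h2 : N.index ≠ 1 := by
    intro h; exact ht (Subgroup.index_eq_one.mp h)
  have h3 : 0 < Nat.card N := Nat.card_pos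
  have h4 : 0 < N.index := Nat.pos_of_ne_zero (Subgroup.index_ne_zero_of_finite)
  have h1' : 2 ≤ Nat.card N := by omega
  have h2' : 2 ≤ N.index := by omega
  constructor
  · rw [← hmul]; nlinarith
  · rw [← hmul]; nlinarith

theorem isSolvable_of_card_lt_sixty (n : ℕ) : ∀ (G : Type u) [Group G] [Finite G],
    Nat.card G = n → n < 60 → Group.IsSolvable G := by
  induction n using Nat.strong_induction_on with
  | _ n ih =>
    intro G _ _ hcard hn
    by_cases hnt : Nontrivial G
    swap
    · rw [not_nontrivial_iff_subsingleton] at hnt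
      infer_instance
    by_cases hs : IsSimpleGroup G
    · by_cases hc : IsCyclic G
      · let _ : CommGroup G := hc.commGroup
        infer_instance
      · have := Cfsg.Agent.S0493.result hc (by omega)
        omega
    · obtain ⟨N, hN, hb, ht⟩ := exists_normal_of_not_simple' hs
      obtain ⟨h5, h6⟩ := card_lt_of_normal N hb ht
      rw [hcard] at h5 h6
      have s1 : Group.IsSolvable N := ih _ h5 N rfl (by omega)
      have s2 : Group.IsSolvable (G ⧸ N) := ih _ h6 (G ⧸ N) rfl (by omega)
      exact (Group.isSolvable_iff_subgroup_quotient N).2 ⟨s1, s2⟩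

/-- a non-solvable group of order 60 is simple -/
theorem isSimpleGroup_of_card_sixty {G : Type u} [Group G] [Finite G] (hcard : Nat.card G = 60)
    (hns : ¬ Group.IsSolvable G) : IsSimpleGroup G := by
  by_contra hs
  have hnt : Nontrivial G := by
    rw [← Finite.one_lt_card_iff_nontrivial]; omega
  obtain ⟨N, hN, hb, ht⟩ := exists_normal_of_not_simple' hs
  obtain ⟨h5, h6⟩ := card_lt_of_normal N hb ht
  rw [hcard] at h5 h6
  have s1 : Group.IsSolvable N := isSolvable_of_card_lt_sixty _ N rfl h5
  have s2 : Group.IsSolvable (G ⧸ N) := isSolvable_of_card_lt_sixty _ (G ⧸ N) rfl h6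
  exact hns ((Group.isSolvable_iff_subgroup_quotient N).2 ⟨s1, s2⟩)

theorem q8_inv_unique : ∀ g : QuaternionGroup 2, g ^ 2 = 1 → g ≠ 1 → g = QuaternionGroup.a 2 := by
  decide

theorem q8_comm : (QuaternionGroup.a 1 : QuaternionGroup 2) * QuaternionGroup.xa 0 *
    (QuaternionGroup.a 1)⁻¹ * (QuaternionGroup.xa 0)⁻¹ = QuaternionGroup.a 2 := by
  decide

theorem q8_a2 : (QuaternionGroup.a 2 : QuaternionGroup 2) ^ 2 = 1 ∧
    (QuaternionGroup.a 2 : QuaternionGroup 2) ≠ 1 := by
  decide

/-- Every non-solvable group of order 120 whose Sylow 2-subgroups are quaternion of order 8 is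
isomorphic to `SL(2,5)`. -/
theorem nonempty_equiv_SL25_of_card {G : Type u} [Group G] [Finite G] (hcard : Nat.card G = 120)
    (hns : ¬ Group.IsSolvable G)
    (hQ : ∀ P : Sylow 2 G, Nonempty ((P : Subgroup G) ≃* QuaternionGroup 2)) :
    Nonempty (G ≃* Matrix.SpecialLinearGroup (Fin 2) (ZMod 5)) := by
  obtain ⟨P⟩ : Nonempty (Sylow 2 G) := inferInstance
  obtain ⟨e⟩ := hQ P
  obtain ⟨u', hu'⟩ : ∃ u' : (P : Subgroup G), u' = e.symm (QuaternionGroup.a 2) := ⟨_, rfl⟩
  have heu : e u' = QuaternionGroup.a 2 := by rw [hu', MulEquiv.apply_symm_apply]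
  have hu2' : u' ^ 2 = 1 := by
    apply e.injective
    rw [map_pow, heu, map_one]
    exact q8_a2.1
  have hu1' : u' ≠ 1 := by
    intro h
    rw [h, map_one] at heu
    exact q8_a2.2 heu.symm
  have huniq' : ∀ g : (P : Subgroup G), g ^ 2 = 1 → g ≠ 1 → g = u' := by
    intro g h1 h2
    apply e.injective
    rw [heu]
    apply q8_inv_unique
    · rw [← map_pow, h1, map_one]
    · intro h
      apply h2
      apply e.injective
      rw [h, map_one]
  obtain ⟨u, hu⟩ : ∃ u : G, u = (u' : G) := ⟨_, rfl⟩
  have huP : u ∈ P := by rw [hu]; exact u'.2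
  have hu2 : u ^ 2 = 1 := by rw [hu]; exact congrArg Subtype.val hu2'
  have hu1 : u ≠ 1 := by
    intro h
    apply hu1'
    apply Subtype.ext
    rw [← hu, h]; rfl
  have huniq : ∀ g ∈ P, g ^ 2 = 1 → g ≠ 1 → g = u := by
    intro g hg h1 h2
    have := huniq' ⟨g, hg⟩ (Subtype.ext h1) (fun h => h2 (congrArg Subtype.val h))
    rw [hu, ← this]
  have hou : orderOf u = 2 := orderOf_eq_prime hu2 hu1
  -- `u` is a commutator
  have hucomm : u ∈ commutator G := by
    have h1 : u' = ⁅e.symm (QuaternionGroup.a 1), e.symm (QuaternionGroup.xa 0)⁆ := by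
      apply e.injective
      rw [heu, map_commutatorElement, MulEquiv.apply_symm_apply, MulEquiv.apply_symm_apply,
        commutatorElement_def]
      exact q8_comm.symm
    rw [hu, h1]
    have : ((⁅e.symm (QuaternionGroup.a 1), e.symm (QuaternionGroup.xa 0)⁆ : (P : Subgroup G)) : G) =
        ⁅((e.symm (QuaternionGroup.a 1) : (P : Subgroup G)) : G),
          ((e.symm (QuaternionGroup.xa 0) : (P : Subgroup G)) : G)⁆ := by
      simp [commutatorElement_def]
    rw [this]
    exact Subgroup.commutator_mem_commutator (Subgroup.mem_top _) (Subgroup.mem_top _)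
  -- Z*
  obtain ⟨N, hN, hNodd, hNu⟩ := Cfsg.Agent.S0215.result P u hou huP (by
    intro g hg
    apply huniq _ hg
    · rw [conj_pow, hu2]; group
    · intro h
      apply hu1
      have : u = g⁻¹ * (g * u * g⁻¹) * g := by group
      rw [this, h]; group)
  have hNbot : N = ⊥ := by
    by_contra hb
    have hmul := N.card_mul_index
    rw [hcard] at hmul
    have h1 : Nat.card N ≠ 1 := by
      intro h; exact hb (Subgroup.card_eq_one.mp h)
    have h3 : 0 < Nat.card N := Nat.card_pos
    obtain ⟨k, hk⟩ := hNodd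
    have hk1 : 1 ≤ k := by omega
    have hi : N.index < 60 := by
      by_contra hcon
      push Not at hcon
      have : 3 * 60 ≤ Nat.card N * N.index := Nat.mul_le_mul (by omega) hcon
      omega
    have hi2 : 2 ≤ N.index := by
      by_contra hcon
      push Not at hcon
      have : N.index = 0 ∨ N.index = 1 := by omega
      rcases this with h | h
      · rw [h] at hmul; omega
      · rw [h] at hmul; omega
    have hc : Nat.card N < 60 := by
      by_contra hcon
      push Not at hcon
      have h60 : 60 * 2 ≤ Nat.card N * N.index := Nat.mul_le_mul hcon hi2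
      have : Nat.card N * N.index = (2 * k + 1) * N.index := by rw [hk]
      have h4 : Nat.card N = 60 := by
        by_contra hne
        have : 61 * 2 ≤ Nat.card N * N.index := Nat.mul_le_mul (by omega) hi2
        omega
      omega
    have s1 : Group.IsSolvable N := isSolvable_of_card_lt_sixty _ N rfl hc
    have s2 : Group.IsSolvable (G ⧸ N) := isSolvable_of_card_lt_sixty _ (G ⧸ N) rfl hi
    exact hns ((Group.isSolvable_iff_subgroup_quotient N).2 ⟨s1, s2⟩)
  have huc : ∀ g : G, u * g = g * u := by
    intro g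
    have := hNu g
    rw [hNbot, Subgroup.mem_bot] at this
    calc u * g = (u * g * u⁻¹ * g⁻¹) * (g * u) := by group
      _ = g * u := by rw [this, one_mul]
  have hn : (Subgroup.zpowers u).Normal := by
    constructor
    intro n hn g
    obtain ⟨k, rfl⟩ := Subgroup.mem_zpowers_iff.1 hn
    have : g * u ^ k * g⁻¹ = u ^ k := by
      have hc : Commute g (u ^ k) := Commute.zpow_right (huc g).symm k
      rw [hc.eq, mul_assoc, mul_inv_cancel, mul_one]
    rw [this]
    exact Subgroup.zpow_mem_zpowers u k
  have hZcard : Nat.card (Subgroup.zpowers u) = 2 := by rw [Nat.card_zpowers, hou]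
  have hQcard : Nat.card (G ⧸ Subgroup.zpowers u) = 60 := by
    have := Subgroup.card_eq_card_quotient_mul_card_subgroup (Subgroup.zpowers u)
    rw [hcard, hZcard] at this
    omega
  have hQns : ¬ Group.IsSolvable (G ⧸ Subgroup.zpowers u) := by
    intro s2
    have s1 : Group.IsSolvable (Subgroup.zpowers u) :=
      isSolvable_of_card_lt_sixty _ _ rfl (by rw [hZcard]; norm_num)
    exact hns ((Group.isSolvable_iff_subgroup_quotient (Subgroup.zpowers u)).2 ⟨s1, s2⟩)
  have hQs : IsSimpleGroup (G ⧸ Subgroup.zpowers u) := isSimpleGroup_of_card_sixty hQcard hQns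
  obtain ⟨e'⟩ := Cfsg.Agent.S0494.result hQcard
  have hperf : commutator G = ⊤ := by
    have hZle : Subgroup.zpowers u ≤ commutator G := by
      rw [Subgroup.zpowers_le]; exact hucomm
    have hmn : ((commutator G).map (QuotientGroup.mk' (Subgroup.zpowers u))).Normal :=
      Subgroup.Normal.map inferInstance _ (QuotientGroup.mk'_surjective _)
    rcases hmn.eq_bot_or_eq_top with h | h
    · exfalso
      rw [Subgroup.map_eq_bot_iff, QuotientGroup.ker_mk'] at h
      have hc := Subgroup.Normal.quotient_commutative_iff_commutator_le.2 h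
      exact hQns (Group.isSolvable_of_comm (fun a b => hc.is_comm.comm a b))
    · have h2 := congrArg (Subgroup.comap (QuotientGroup.mk' (Subgroup.zpowers u))) h
      rw [Subgroup.comap_map_eq, QuotientGroup.ker_mk', Subgroup.comap_top, sup_eq_left.2 hZle] at h2
      exact h2
  refine sl25_of_central_ext hperf (e'.toMonoidHom.comp (QuotientGroup.mk' (Subgroup.zpowers u)))
    (e'.surjective.comp (QuotientGroup.mk'_surjective _)) ?_
  have : (e'.toMonoidHom.comp (QuotientGroup.mk' (Subgroup.zpowers u))).ker = Subgroup.zpowers u := by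
    ext g
    rw [MonoidHom.mem_ker, MonoidHom.comp_apply]
    change e' _ = 1 ↔ _
    rw [map_eq_one_iff e' e'.injective, QuotientGroup.mk'_apply, QuotientGroup.eq_one_iff]
  rw [this, hZcard]

end Cfsg.Agent.Lib.Helper62
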