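import Mathlib
import Cfsg.Agent.Lib.Helper34.QuadPair

/-!
# `SL₂(F)` as a `TraceRep`; unipotent elements and their centralizers
-/

set_option autoImplicit false

namespace Cfsg.Agent.Lib.Helper62

open Matrix Helper34

/-- the scalar matrices -/
def scalarSubring (F : Type*) [Field F] : Subring (Matrix (Fin 2) (Fin 2) F) :=
  (algebraMap F (Matrix (Fin 2) (Fin 2) F)).range

theorem traceRep_SL2 {F : Type*} [Field F] (p : ℕ) [CharP F p] :
    TraceRep p
      (Matrix.SpecialLinearGroup.toGL : SpecialLinearGroup (Fin 2) F →* (Matrix (Fin 2) (Fin 2) F)ˣ)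
      (scalarSubring F) where
  inj := Matrix.SpecialLinearGroup.toGL_injective
  char := CharP.cast_eq_zero _ p
  comm := by
    rintro _ ⟨c, rfl⟩ g
    exact Algebra.commutes c _
  cancel := by
    rintro _ ⟨c, rfl⟩ hc w hw
    have hc0 : c ≠ 0 := by
      rintro rfl
      exact hc (map_zero _)
    rw [← Algebra.smul_def] at hw
    exact (smul_eq_zero.1 hw).resolve_left hc0
  trace := by
    intro g
    refine ⟨(g : Matrix (Fin 2) (Fin 2) F).trace, ?_⟩
    change _ = (g : Matrix (Fin 2) (Fin 2) F) +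
      ((g⁻¹ : SpecialLinearGroup (Fin 2) F) : Matrix (Fin 2) (Fin 2) F)
    rw [Matrix.SpecialLinearGroup.coe_inv, Matrix.adjugate_fin_two, Matrix.trace_fin_two]
    ext i j
    fin_cases i <;> fin_cases j <;> simp [Matrix.algebraMap_matrix_apply, add_comm]

variable {G R : Type*} [Group G] [Ring R] {p : ℕ} {ρ : G →* Rˣ} {C : Subring R}

/-- `p`-elements are unipotent. -/
theorem TraceRep.unipotent_of_pow [Fact p.Prime] [CharP R p] (h : TraceRep p ρ C) {g : G} {k : ℕ}
    (hg : g ^ (p ^ k) = 1) : (((ρ g : Rˣ) : R) - 1) * (((ρ g : Rˣ) : R) - 1) = 0 := by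
  obtain ⟨x, hx⟩ : ∃ x, x = ((ρ g : Rˣ) : R) := ⟨_, rfl⟩
  obtain ⟨y, hy⟩ : ∃ y, y = ((ρ g⁻¹ : Rˣ) : R) := ⟨_, rfl⟩
  have hyx : y * x = 1 := by rw [hx, hy]; exact TraceRep.val_inv_mul g
  have hxp : x ^ (p ^ k) = 1 := by
    rw [hx, ← Units.val_pow_eq_pow_val, ← map_pow, hg, map_one, Units.val_one]
  have h0 : (x - 1) ^ (p ^ k) = 0 := by
    rw [sub_pow_char_pow_of_commute p k (Commute.one_right x), hxp, one_pow, sub_self]
  obtain ⟨c, hc⟩ : ∃ c, c = (x + y) - (1 + 1) := ⟨_, rfl⟩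
  have hcC : c ∈ C := by
    rw [hc, hx, hy]
    exact sub_mem (h.trace g) (add_mem (one_mem C) (one_mem C))
  have hcx : Commute c x := by
    have := h.comm c hcC g
    rw [← hx] at this
    exact this
  have h1 : (x - 1) * (x - 1) = c * x := by
    have e1 : (x + y - (1 + 1)) * x = x * x + y * x - (x + x) := by
      rw [sub_mul, add_mul, add_mul, one_mul]
    rw [hc, e1, hyx, sub_mul, mul_sub]
    simp only [one_mul, mul_one]
    abel
  have h2 : c ^ (p ^ k) = 0 := by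
    have : ((x - 1) * (x - 1)) ^ (p ^ k) = 0 := by
      rw [(Commute.refl (x - 1)).mul_pow, h0, zero_mul]
    rw [h1, hcx.mul_pow, hxp, mul_one] at this
    exact this
  have h3 : c = 0 := by
    by_contra hc0
    have : ∀ n : ℕ, c ^ n ≠ 0 := by
      intro n
      induction n with
      | zero =>
        rw [pow_zero]
        intro h10
        apply hc0
        rw [← mul_one c, h10, mul_zero]
      | succ n ih =>
        intro hn
        rw [pow_succ'] at hn
        exact ih (h.cancel c hcC hc0 _ hn)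
    exact this _ h2
  rw [← hx, h1, h3, zero_mul]

/-- A `p'`-element commuting with a nontrivial unipotent element has square one. -/
theorem TraceRep.sq_eq_one_of_commute_unipotent (h : TraceRep p ρ C) {a s : G}
    (ha : (((ρ a : Rˣ) : R) - 1) * (((ρ a : Rˣ) : R) - 1) = 0) (ha1 : a ≠ 1) (hs : s * a = a * s)
    {m : ℕ} (hm : m.Coprime p) (hsm : s ^ m = 1) : s * s = 1 := by
  obtain ⟨N, hN⟩ : ∃ N, N = ((ρ a : Rˣ) : R) - 1 := ⟨_, rfl⟩
  obtain ⟨y, hy⟩ : ∃ y, y = ((ρ s : Rˣ) : R) := ⟨_, rfl⟩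
  obtain ⟨y', hy'⟩ : ∃ y', y' = ((ρ s⁻¹ : Rˣ) : R) := ⟨_, rfl⟩
  rw [← hN] at ha
  have hx : ((ρ a : Rˣ) : R) = 1 + N := by rw [hN]; abel
  have hN0 : N ≠ 0 := by
    intro h0
    apply ha1
    apply h.eq_one_of_val_eq_one
    rw [hx, h0, add_zero]
  have hx' : ((ρ a⁻¹ : Rˣ) : R) = 1 - N := by
    have h1 : ((ρ a : Rˣ) : R) * (1 - N) = 1 := by
      rw [hx, add_mul, mul_sub, mul_sub, ha]
      simp
    calc ((ρ a⁻¹ : Rˣ) : R) = ((ρ a⁻¹ : Rˣ) : R) * (((ρ a : Rˣ) : R) * (1 - N)) := by rw [h1, mul_one]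
      _ = 1 - N := by rw [← mul_assoc, TraceRep.val_inv_mul, one_mul]
  have hyy' : y * y' = 1 := by rw [hy, hy']; exact TraceRep.val_mul_inv s
  have hy'y : y' * y = 1 := by rw [hy, hy']; exact TraceRep.val_inv_mul s
  have hyN : y * N = N * y := by
    have h1 : y * ((ρ a : Rˣ) : R) = ((ρ a : Rˣ) : R) * y := by
      rw [hy, ← Units.val_mul, ← Units.val_mul, ← map_mul, ← map_mul, hs]
    rw [hx, mul_add, add_mul, mul_one, one_mul] at h1
    exact add_left_cancel h1
  have hy'N : y' * N = N * y' := by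
    calc y' * N = y' * (N * y) * y' := by rw [mul_assoc, mul_assoc, hyy', mul_one]
      _ = y' * (y * N) * y' := by rw [hyN]
      _ = N * y' := by rw [← mul_assoc, hy'y, one_mul]
  obtain ⟨c, hc⟩ : ∃ c, c = N * (y - y') := ⟨_, rfl⟩
  have hcC : c ∈ C := by
    have h1 := h.trace (a * s)
    have h2 := h.trace s
    have h3 : c = (((ρ (a * s) : Rˣ) : R) + ((ρ (a * s)⁻¹ : Rˣ) : R)) -
        (((ρ s : Rˣ) : R) + ((ρ s⁻¹ : Rˣ) : R)) := by
      rw [_root_.mul_inv_rev, map_mul, map_mul, Units.val_mul, Units.val_mul, hx, hx', ← hy, ← hy', hc, add_mul,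
        mul_sub, mul_sub, hy'N]
      simp only [one_mul, mul_one]
      abel
    rw [h3]
    exact sub_mem h1 h2
  have hcN : c * N = 0 := by
    rw [hc, mul_assoc, sub_mul, hyN, hy'N, ← mul_sub, ← mul_assoc, ha, zero_mul]
  have hc0 : c = 0 := by
    by_contra hne
    exact hN0 (h.cancel c hcC hne N hcN)
  have hsm2 : (s * s) ^ m = 1 := by
    rw [(Commute.refl s).mul_pow, hsm, one_mul]
  rcases h.eq_one_or_cancel (s * s) hm hsm2 with h1 | h1
  · exact h1
  · exfalso
    have h2 : (((ρ (s * s) : Rˣ) : R) - 1) * (y' * N) = 0 := by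
      rw [map_mul, Units.val_mul, ← hy, sub_mul, one_mul, mul_assoc y y, ← mul_assoc y y' N, hyy', one_mul,
        hyN, hy'N, ← mul_sub, ← hc, hc0]
    have h3 := h1 _ h2
    apply hN0
    calc N = y * (y' * N) := by rw [← mul_assoc, hyy', one_mul]
      _ = 0 := by rw [h3, mul_zero]

end Cfsg.Agent.Lib.Helper62
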