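import Mathlib

set_option autoImplicit false

namespace Cfsg.Agent.Lib.Helper62

open Matrix

section mats

variable {R : Type*} [CommRing R] {n : ℕ}

/-- matrices supported on (odd row, even column) -/
def EO (M : Matrix (Fin n) (Fin n) R) : Prop :=
  ∀ i j, M i j ≠ 0 → (i.val % 2 = 1 ∧ j.val % 2 = 0)

theorem EO.mul_eq_zero {M M' : Matrix (Fin n) (Fin n) R} (h : EO M) (h' : EO M') : M * M' = 0 := by
  ext i j
  rw [Matrix.mul_apply]
  apply Finset.sum_eq_zero
  intro k _
  by_cases h1 : M i k = 0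
  · rw [h1, zero_mul]
  · by_cases h2 : M' k j = 0
    · rw [h2, mul_zero]
    · have := (h i k h1).2
      have := (h' k j h2).1
      omega

theorem EO.add {M M' : Matrix (Fin n) (Fin n) R} (h : EO M) (h' : EO M') : EO (M + M') := by
  intro i j hij
  by_cases h1 : M i j = 0
  · apply h'
    intro h2
    apply hij
    rw [Matrix.add_apply, h1, h2, add_zero]
  · exact h i j h1

theorem EO.smul {M : Matrix (Fin n) (Fin n) R} (h : EO M) (c : R) : EO (c • M) := by
  intro i j hij
  apply h
  intro h1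
  apply hij
  rw [Matrix.smul_apply, h1, smul_zero]

/-- `e_{2k} ↦ e_{2k+1}` -/
def zX (R : Type*) [CommRing R] (n : ℕ) : Matrix (Fin n) (Fin n) R :=
  Matrix.of fun i j => if j.val % 2 = 0 ∧ i.val = j.val + 1 then 1 else 0

/-- `e_{2k} ↦ e_{2k-1}` -/
def zY (R : Type*) [CommRing R] (n : ℕ) : Matrix (Fin n) (Fin n) R :=
  Matrix.of fun i j => if j.val % 2 = 0 ∧ i.val + 1 = j.val then 1 else 0

/-- `e_0 ↦ e_1` -/
def zW (R : Type*) [CommRing R] (n : ℕ) : Matrix (Fin n) (Fin n) R :=
  Matrix.of fun i j => if j.val = 0 ∧ i.val = 1 then 1 else 0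

theorem zX_EO : EO (zX R n) := by
  intro i j h
  simp only [zX, Matrix.of_apply, ne_eq, ite_eq_right_iff, not_forall] at h
  obtain ⟨h, -⟩ := h
  omega

theorem zY_EO : EO (zY R n) := by
  intro i j h
  simp only [zY, Matrix.of_apply, ne_eq, ite_eq_right_iff, not_forall] at h
  obtain ⟨h, -⟩ := h
  omega

theorem zW_EO : EO (zW R n) := by
  intro i j h
  simp only [zW, Matrix.of_apply, ne_eq, ite_eq_right_iff, not_forall] at h
  obtain ⟨h, -⟩ := h
  omega

/-- the nilpotent part -/
def zN (n : ℕ) (v : Fin 3 → R) : Matrix (Fin n) (Fin n) R :=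
  v 0 • zX R n + v 1 • zY R n + v 2 • zW R n

theorem zN_EO (v : Fin 3 → R) : EO (zN n v) :=
  ((zX_EO.smul _).add (zY_EO.smul _)).add (zW_EO.smul _)

theorem zN_add (v w : Fin 3 → R) : zN n (v + w) = zN n v + zN n w := by
  simp only [zN, Pi.add_apply, add_smul]
  abel

theorem zN_smul (c : R) (v : Fin 3 → R) : zN n (c • v) = c • zN n v := by
  simp only [zN, Pi.smul_apply, smul_eq_mul, smul_add, smul_smul]

theorem zN_zero : zN n (0 : Fin 3 → R) = 0 := by
  simp [zN]

theorem zN_injective (hn : 4 ≤ n) {v : Fin 3 → R} (h : zN n v = 0) : v = 0 := by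
  have e : ∀ i j, zN n v i j = 0 := fun i j => by rw [h]; rfl
  have e32 := e ⟨3, by omega⟩ ⟨2, by omega⟩
  have e12 := e ⟨1, by omega⟩ ⟨2, by omega⟩
  have e10 := e ⟨1, by omega⟩ ⟨0, by omega⟩
  simp [zN, zX, zY, zW] at e32 e12 e10
  funext i
  fin_cases i
  · exact e32
  · exact e12
  · simpa [e32] using e10

/-- the diagonal matrix `c^i` -/
def zT (n : ℕ) (c : R) : Matrix (Fin n) (Fin n) R := Matrix.diagonal fun i => c ^ i.val

theorem zT_mul (c d : R) : zT n c * zT n d = zT n (c * d) := by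
  simp only [zT, Matrix.diagonal_mul_diagonal, mul_pow]

theorem zT_one : zT n (1 : R) = 1 := by
  simp [zT]

theorem zT_mul_EO {c : R} (hc : c * c = 1) {M : Matrix (Fin n) (Fin n) R} (h : EO M) :
    zT n c * M = c • (M * zT n c) := by
  ext i j
  rw [zT, Matrix.diagonal_mul, Matrix.smul_apply, Matrix.mul_diagonal]
  by_cases h1 : M i j = 0
  · simp [h1]
  · obtain ⟨hi, hj⟩ := h i j h1
    have e1 : c ^ i.val = c := by
      obtain ⟨a, ha⟩ : ∃ a, i.val = 2 * a + 1 := ⟨i.val / 2, by omega⟩
      rw [ha, pow_succ, pow_mul, pow_two, hc, one_pow, one_mul]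
    have e2 : c ^ j.val = 1 := by
      obtain ⟨a, ha⟩ : ∃ a, j.val = 2 * a := ⟨j.val / 2, by omega⟩
      rw [ha, pow_mul, pow_two, hc, one_pow]
    rw [e1, e2, mul_one, smul_eq_mul]

theorem one_add_pow_of_sq_zero {M : Matrix (Fin n) (Fin n) R} (h : M * M = 0) (k : ℕ) :
    (1 + M) ^ k = 1 + (k : R) • M := by
  induction k with
  | zero => simp
  | succ k ih =>
    rw [pow_succ, ih, add_mul, one_mul, mul_add, mul_one, Matrix.smul_mul, h, smul_zero, add_zero]
    push_cast
    rw [add_smul, one_smul]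
    abel

theorem mul_zX_apply (g : Matrix (Fin n) (Fin n) R) (i j : Fin n) :
    (g * zX R n) i j = if h : j.val % 2 = 0 ∧ j.val + 1 < n then g i ⟨j.val + 1, h.2⟩ else 0 := by
  rw [Matrix.mul_apply]
  split_ifs with h
  · rw [Finset.sum_eq_single ⟨j.val + 1, h.2⟩]
    · simp [zX, h.1]
    · intro b _ hb
      have : ¬ (j.val % 2 = 0 ∧ b.val = j.val + 1) := fun h' => hb (Fin.ext h'.2)
      simp [zX, this]
    · simp
  · apply Finset.sum_eq_zero
    intro k _
    have : ¬ (j.val % 2 = 0 ∧ k.val = j.val + 1) := fun h' => h ⟨h'.1, by have := k.2; omega⟩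
    simp [zX, this]

theorem zX_mul_apply (g : Matrix (Fin n) (Fin n) R) (i j : Fin n) :
    (zX R n * g) i j = if i.val % 2 = 1 then g ⟨i.val - 1, by have := i.2; omega⟩ j else 0 := by
  rw [Matrix.mul_apply]
  split_ifs with h
  · rw [Finset.sum_eq_single ⟨i.val - 1, by have := i.2; omega⟩]
    · have : (i.val - 1) % 2 = 0 ∧ i.val = i.val - 1 + 1 := by omega
      simp only [zX, Matrix.of_apply]
      rw [if_pos this, one_mul]
    · intro b _ hb
      have : ¬ (b.val % 2 = 0 ∧ i.val = b.val + 1) := fun h' => hb (Fin.ext (by simp; omega))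
      simp [zX, this]
    · simp
  · apply Finset.sum_eq_zero
    intro k _
    have : ¬ (k.val % 2 = 0 ∧ i.val = k.val + 1) := fun h' => h (by omega)
    simp [zX, this]

theorem mul_zY_apply (g : Matrix (Fin n) (Fin n) R) (i j : Fin n) :
    (g * zY R n) i j = if j.val % 2 = 0 ∧ 1 ≤ j.val then g i ⟨j.val - 1, by have := j.2; omega⟩
      else 0 := by
  rw [Matrix.mul_apply]
  split_ifs with h
  · rw [Finset.sum_eq_single ⟨j.val - 1, by have := j.2; omega⟩]
    · have : j.val % 2 = 0 ∧ j.val - 1 + 1 = j.val := by omega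
      simp only [zY, Matrix.of_apply]
      rw [if_pos this, mul_one]
    · intro b _ hb
      have : ¬ (j.val % 2 = 0 ∧ b.val + 1 = j.val) := fun h' => hb (Fin.ext (by simp; omega))
      simp [zY, this]
    · simp
  · apply Finset.sum_eq_zero
    intro k _
    have : ¬ (j.val % 2 = 0 ∧ k.val + 1 = j.val) := fun h' => h (by omega)
    simp [zY, this]

theorem zY_mul_apply (g : Matrix (Fin n) (Fin n) R) (i j : Fin n) :
    (zY R n * g) i j = if h : i.val % 2 = 1 ∧ i.val + 1 < n then g ⟨i.val + 1, h.2⟩ j else 0 := by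
  rw [Matrix.mul_apply]
  split_ifs with h
  · rw [Finset.sum_eq_single ⟨i.val + 1, h.2⟩]
    · have : (i.val + 1) % 2 = 0 := by omega
      simp [zY, this]
    · intro b _ hb
      have : ¬ (b.val % 2 = 0 ∧ i.val + 1 = b.val) := fun h' => hb (Fin.ext h'.2.symm)
      simp [zY, this]
    · simp
  · apply Finset.sum_eq_zero
    intro k _
    have : ¬ (k.val % 2 = 0 ∧ i.val + 1 = k.val) := fun h' => h (by have := k.2; omega)
    simp [zY, this]

end mats

section brick

variable {R : Type*} [Field R] {n : ℕ}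

/-- the zigzag module is a brick -/
theorem scalar_of_comm_zigzag (h2 : (2 : R) ≠ 0) (hn : n % 2 = 1) (g : Matrix (Fin n) (Fin n) R)
    (hT : g * zT n (-1) = zT n (-1) * g) (hX : g * zX R n = zX R n * g)
    (hY : g * zY R n = zY R n * g) (i j : Fin n) :
    g i j = if i = j then g ⟨0, by omega⟩ ⟨0, by omega⟩ else 0 := by
  -- parity
  have hpar : ∀ a b : Fin n, a.val % 2 ≠ b.val % 2 → g a b = 0 := by
    intro a b hab
    have h := congrFun (congrFun hT a) b
    rw [zT, Matrix.mul_diagonal, Matrix.diagonal_mul] at h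
    rcases Nat.even_or_odd a.val with ha | ha <;> rcases Nat.even_or_odd b.val with hb | hb
    · rw [Nat.even_iff] at ha hb; omega
    · rw [ha.neg_one_pow, hb.neg_one_pow] at h
      have : 2 * g a b = 0 := by linear_combination -h
      exact (mul_eq_zero.mp this).resolve_left h2
    · rw [ha.neg_one_pow, hb.neg_one_pow] at h
      have : 2 * g a b = 0 := by linear_combination h
      exact (mul_eq_zero.mp this).resolve_left h2
    · rw [Nat.odd_iff] at ha hb; omega
  -- Toeplitz
  have htoe : ∀ (a b : ℕ) (ha : a + 1 < n) (hb : b + 1 < n),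
      g ⟨a + 1, ha⟩ ⟨b + 1, hb⟩ = g ⟨a, by omega⟩ ⟨b, by omega⟩ := by
    intro a b ha hb
    by_cases hab : a % 2 = b % 2
    · rcases Nat.mod_two_eq_zero_or_one a with ha2 | ha2
      · have h := congrFun (congrFun hX ⟨a + 1, ha⟩) ⟨b, by omega⟩
        rw [mul_zX_apply, zX_mul_apply, dif_pos ⟨by simp; omega, by simpa using hb⟩,
          if_pos (by simp; omega)] at h
        simpa using h
      · have h := congrFun (congrFun hY ⟨a, by omega⟩) ⟨b + 1, hb⟩
        rw [mul_zY_apply, zY_mul_apply, if_pos ⟨by simp; omega, by simp⟩,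
          dif_pos ⟨by simpa using ha2, by simpa using ha⟩] at h
        simpa using h.symm
    · rw [hpar _ _ (by simp; omega), hpar _ _ (by simpa using hab)]
  -- boundary
  have hb0 : ∀ (k : ℕ) (hk : k < n), 1 ≤ k → g ⟨k, hk⟩ ⟨0, by omega⟩ = 0 := by
    intro k hk hk1
    rcases Nat.mod_two_eq_zero_or_one k with hk2 | hk2
    · have h := congrFun (congrFun hY ⟨k - 1, by omega⟩) ⟨0, by omega⟩
      rw [mul_zY_apply, zY_mul_apply, if_neg (by simp),
        dif_pos ⟨by simp; omega, by simp; omega⟩] at h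
      have e : (⟨k - 1 + 1, by omega⟩ : Fin n) = ⟨k, hk⟩ := Fin.ext (by simp; omega)
      simp only at h
      rw [e] at h
      exact h.symm
    · exact hpar _ _ (by simp; omega)
  have hbn : ∀ (k : ℕ) (hk : k + 1 < n), g ⟨k, by omega⟩ ⟨n - 1, by omega⟩ = 0 := by
    intro k hk
    rcases Nat.mod_two_eq_zero_or_one k with hk2 | hk2
    · have h := congrFun (congrFun hX ⟨k + 1, hk⟩) ⟨n - 1, by omega⟩
      rw [mul_zX_apply, zX_mul_apply, dif_neg (by simp; omega), if_pos (by simp; omega)] at h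
      simpa using h.symm
    · exact hpar _ _ (by simp; omega)
  -- conclusion
  have hlow : ∀ (b d : ℕ) (h : d + 1 + b < n), g ⟨d + 1 + b, h⟩ ⟨b, by omega⟩ = 0 := by
    intro b
    induction b with
    | zero => intro d h; exact hb0 _ _ (by omega)
    | succ b ih =>
      intro d h
      have := htoe (d + 1 + b) b (by omega) (by omega)
      rw [ih d (by omega)] at this
      exact this
  have hup : ∀ (e a b : ℕ) (hab : a < b) (hb : b + e + 1 = n), g ⟨a, by omega⟩ ⟨b, by omega⟩ = 0 := by
    intro e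
    induction e with
    | zero =>
      intro a b hab hb
      have := hbn a (by omega)
      have e' : (⟨n - 1, by omega⟩ : Fin n) = ⟨b, by omega⟩ := Fin.ext (by simp; omega)
      rw [e'] at this
      exact this
    | succ e ih =>
      intro a b hab hb
      rw [← htoe a b (by omega) (by omega)]
      exact ih (a + 1) (b + 1) (by omega) (by omega)
  have hdiag : ∀ (a : ℕ) (ha : a < n), g ⟨a, ha⟩ ⟨a, ha⟩ = g ⟨0, by omega⟩ ⟨0, by omega⟩ := by
    intro a
    induction a with
    | zero => intro _; rfl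
    | succ a ih => intro ha; rw [htoe a a ha ha]; exact ih (by omega)
  split_ifs with hij
  · subst hij
    exact hdiag i.val i.2
  · rcases lt_or_gt_of_ne (fun h => hij (Fin.ext h) : i.val ≠ j.val) with h | h
    · exact hup (n - 1 - j.val) i.val j.val h (by have := j.2; omega)
    · have := hlow j.val (i.val - j.val - 1) (by have := i.2; omega)
      have e' : (⟨i.val - j.val - 1 + 1 + j.val, by have := i.2; omega⟩ : Fin n) = i :=
        Fin.ext (by simp; omega)
      rw [e'] at this
      exact this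

end brick

section group

/-- the generalized dihedral group on `(ZMod p)^3` -/
@[ext] structure GDih (p : ℕ) where
  /-- translation part -/
  v : Fin 3 → ZMod p
  /-- sign -/
  e : ℤˣ

variable {p : ℕ}

instance : Group (GDih p) where
  mul a b := ⟨a.v + a.e • b.v, a.e * b.e⟩
  one := ⟨0, 1⟩
  inv a := ⟨-(a.e⁻¹ • a.v), a.e⁻¹⟩
  mul_assoc a b c := by
    apply GDih.ext
    · change a.v + a.e • b.v + (a.e * b.e) • c.v = a.v + a.e • (b.v + b.e • c.v)
      rw [smul_add, mul_smul, add_assoc]
    · exact mul_assoc _ _ _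
  one_mul a := by
    apply GDih.ext
    · change (0 : Fin 3 → ZMod p) + (1 : ℤˣ) • a.v = a.v
      rw [one_smul, zero_add]
    · exact one_mul _
  mul_one a := by
    apply GDih.ext
    · change a.v + a.e • (0 : Fin 3 → ZMod p) = a.v
      rw [smul_zero, add_zero]
    · exact mul_one _
  inv_mul_cancel a := by
    apply GDih.ext
    · change -(a.e⁻¹ • a.v) + a.e⁻¹ • a.v = 0
      rw [neg_add_cancel]
    · exact inv_mul_cancel _

theorem GDih.mul_v (a b : GDih p) : (a * b).v = a.v + a.e • b.v := rfl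
theorem GDih.mul_e (a b : GDih p) : (a * b).e = a.e * b.e := rfl
theorem GDih.one_v : (1 : GDih p).v = 0 := rfl
theorem GDih.one_e : (1 : GDih p).e = 1 := rfl

/-- as a product of sets -/
def GDih.equivProd (p : ℕ) : GDih p ≃ (Fin 3 → ZMod p) × ℤˣ where
  toFun a := (a.v, a.e)
  invFun x := ⟨x.1, x.2⟩
  left_inv _ := rfl
  right_inv _ := rfl

instance [NeZero p] : Finite (GDih p) := Finite.of_equiv _ (GDih.equivProd p).symm

theorem GDih.card [NeZero p] : Nat.card (GDih p) = 2 * p ^ 3 := by
  rw [Nat.card_congr (GDih.equivProd p), Nat.card_prod, Nat.card_eq_fintype_card,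
    Nat.card_eq_fintype_card, Fintype.card_units_int, Fintype.card_fun, ZMod.card, Fintype.card_fin,
    mul_comm]

/-- the sign as an element of `ZMod p` -/
def sgn (p : ℕ) (e : ℤˣ) : ZMod p := ((e : ℤ) : ZMod p)

theorem sgn_mul (e f : ℤˣ) : sgn p (e * f) = sgn p e * sgn p f := by
  simp [sgn]

theorem sgn_one : sgn p 1 = 1 := by simp [sgn]

theorem sgn_sq (e : ℤˣ) : sgn p e * sgn p e = 1 := by
  rw [← sgn_mul, Int.units_mul_self, sgn_one]

theorem sgn_smul (e : ℤˣ) (v : Fin 3 → ZMod p) : e • v = sgn p e • v := by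
  funext i
  simp [sgn, Units.smul_def]

/-- the matrix of an element -/
def zM (n : ℕ) (a : GDih p) : Matrix (Fin n) (Fin n) (ZMod p) :=
  (1 + zN n a.v) * zT n (sgn p a.e)

theorem zM_mul (n : ℕ) (a b : GDih p) : zM n (a * b) = zM n a * zM n b := by
  unfold zM
  rw [GDih.mul_v, GDih.mul_e, sgn_mul, ← zT_mul, zN_add, sgn_smul, zN_smul]
  have h1 : zT n (sgn p a.e) * (1 + zN n b.v)
      = (1 + sgn p a.e • zN n b.v) * zT n (sgn p a.e) := by
    rw [mul_add, mul_one, zT_mul_EO (sgn_sq _) (zN_EO _), add_mul, one_mul, Matrix.smul_mul]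
  calc (1 + (zN n a.v + sgn p a.e • zN n b.v)) * (zT n (sgn p a.e) * zT n (sgn p b.e))
      = ((1 + zN n a.v) * (1 + sgn p a.e • zN n b.v)) * (zT n (sgn p a.e) * zT n (sgn p b.e)) := by
        congr 1
        rw [add_mul, one_mul, mul_add, mul_one, Matrix.mul_smul,
          (zN_EO a.v).mul_eq_zero (zN_EO b.v), smul_zero, add_zero]
        abel
    _ = (1 + zN n a.v) * ((1 + sgn p a.e • zN n b.v) * zT n (sgn p a.e)) * zT n (sgn p b.e) := by
        simp only [mul_assoc]
    _ = (1 + zN n a.v) * zT n (sgn p a.e) * ((1 + zN n b.v) * zT n (sgn p b.e)) := by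
        rw [← h1]; simp only [mul_assoc]

theorem zM_one (n : ℕ) : zM n (1 : GDih p) = 1 := by
  unfold zM
  rw [GDih.one_v, GDih.one_e, sgn_one, zT_one, zN_zero, add_zero, mul_one]

theorem det_one_add_zN [Fact p.Prime] (n : ℕ) (v : Fin 3 → ZMod p) : (1 + zN n v).det = 1 := by
  have h := one_add_pow_of_sq_zero ((zN_EO v).mul_eq_zero (zN_EO (n := n) v)) p
  rw [CharP.cast_eq_zero, zero_smul, add_zero] at h
  have h' := congrArg Matrix.det h
  rw [Matrix.det_pow, ZMod.pow_card, Matrix.det_one] at h'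
  exact h'

theorem det_zT (k : ℕ) (e : ℤˣ) : (zT (4 * k + 1) (sgn p e)).det = 1 := by
  rw [zT, Matrix.det_diagonal, Fin.prod_univ_eq_prod_range (fun i => sgn p e ^ i) (4 * k + 1),
    Finset.prod_pow_eq_pow_sum]
  have h := Finset.sum_range_id_mul_two (4 * k + 1)
  have h' : ∑ i ∈ Finset.range (4 * k + 1), i = 2 * ((4 * k + 1) * k) := by
    have : (4 * k + 1) * (4 * k + 1 - 1) = (2 * ((4 * k + 1) * k)) * 2 := by
      simp only [Nat.add_sub_cancel]; ring
    omega
  rw [h', pow_mul, pow_two, sgn_sq, one_pow]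

theorem det_zM [Fact p.Prime] (k : ℕ) (a : GDih p) : (zM (4 * k + 1) a).det = 1 := by
  rw [zM, Matrix.det_mul, det_one_add_zN, det_zT, one_mul]

/-- the representation into `SL_n` -/
def zHom (p : ℕ) [Fact p.Prime] (k : ℕ) :
    GDih p →* Matrix.SpecialLinearGroup (Fin (4 * k + 1)) (ZMod p) where
  toFun a := ⟨zM (4 * k + 1) a, det_zM k a⟩
  map_one' := Subtype.ext (zM_one _)
  map_mul' a b := Subtype.ext (zM_mul _ a b)

theorem trace_zT (k : ℕ) : (zT (4 * k + 1) (-1 : ZMod p)).trace = 1 := by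
  rw [zT, Matrix.trace_diagonal, Fin.sum_univ_eq_sum_range (fun i => (-1 : ZMod p) ^ i) (4 * k + 1)]
  induction k with
  | zero => simp
  | succ k ih =>
    rw [show 4 * (k + 1) + 1 = 4 * k + 1 + 1 + 1 + 1 + 1 by ring, Finset.sum_range_succ,
      Finset.sum_range_succ, Finset.sum_range_succ, Finset.sum_range_succ, ih]
    ring

theorem psl_comm_imp {n : ℕ} {R : Type*} [CommRing R] (g A : Matrix.SpecialLinearGroup (Fin n) R)
    (h : (QuotientGroup.mk A : Matrix.ProjectiveSpecialLinearGroup (Fin n) R) * QuotientGroup.mk g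
      = QuotientGroup.mk g * QuotientGroup.mk A) : ∃ r : R, g.1 * A.1 = r • (A.1 * g.1) := by
  rw [← QuotientGroup.mk_mul, ← QuotientGroup.mk_mul, QuotientGroup.eq,
    Matrix.SpecialLinearGroup.mem_center_iff] at h
  obtain ⟨r, -, hr⟩ := h
  refine ⟨r, ?_⟩
  have h3 : g * A = (A * g) * ((A * g)⁻¹ * (g * A)) := by group
  have := congrArg Subtype.val h3
  rw [Matrix.SpecialLinearGroup.coe_mul, Matrix.SpecialLinearGroup.coe_mul (A * g),
    ← hr, Matrix.SpecialLinearGroup.coe_mul] at this
  rw [this]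
  simp [Matrix.scalar_apply, ← Matrix.smul_one_eq_diagonal]

theorem twisted_pow {n : ℕ} {R : Type*} [CommRing R] {g A : Matrix (Fin n) (Fin n) R} {r : R}
    (h : g * A = r • (A * g)) (k : ℕ) : g * A ^ k = r ^ k • (A ^ k * g) := by
  induction k with
  | zero => simp
  | succ k ih =>
    rw [pow_succ, ← mul_assoc, ih, Matrix.smul_mul, mul_assoc, h, Matrix.mul_smul, smul_smul,
      ← mul_assoc, pow_succ]

theorem eq_one_of_smul_eq {n : ℕ} [NeZero n] {R : Type*} [CommRing R]
    (g : Matrix.SpecialLinearGroup (Fin n) R) {c : R} (h : g.1 = c • g.1) : c = 1 := by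
  have h1 : g.1 * (g⁻¹).1 = 1 := by
    rw [← Matrix.SpecialLinearGroup.coe_mul, mul_inv_cancel]; rfl
  have h2 : (1 : Matrix (Fin n) (Fin n) R) = c • 1 := by
    rw [← h1, ← Matrix.smul_mul, ← h]
  have := congrFun (congrFun h2 0) 0
  simpa using this.symm

theorem zHom_comp_injective (p : ℕ) [Fact p.Prime] (hp : p ≠ 2) (k : ℕ) (hk : 1 ≤ k) :
    Function.Injective ((QuotientGroup.mk' (Subgroup.center
      (Matrix.SpecialLinearGroup (Fin (4 * k + 1)) (ZMod p)))).comp (zHom p k)) := by
  rw [injective_iff_map_eq_one]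
  intro a ha
  change (QuotientGroup.mk (zHom p k a) : Matrix.ProjectiveSpecialLinearGroup _ _) = 1 at ha
  rw [QuotientGroup.eq_one_iff, Matrix.SpecialLinearGroup.mem_center_iff] at ha
  obtain ⟨r, -, hr⟩ := ha
  have hr' : Matrix.scalar (Fin (4 * k + 1)) r = zM (4 * k + 1) a := hr
  have e : ∀ i j, Matrix.scalar (Fin (4 * k + 1)) r i j
      = (1 + zN (4 * k + 1) a.v) i j * sgn p a.e ^ j.val := by
    intro i j
    rw [hr', zM, zT, Matrix.mul_diagonal]
  have n00 : zN (4 * k + 1) a.v ⟨0, by omega⟩ ⟨0, by omega⟩ = 0 := by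
    by_contra h
    have := (zN_EO a.v _ _ h).1
    simp at this
  have n11 : zN (4 * k + 1) a.v ⟨1, by omega⟩ ⟨1, by omega⟩ = 0 := by
    by_contra h
    have := (zN_EO a.v _ _ h).2
    simp at this
  have e00 := e ⟨0, by omega⟩ ⟨0, by omega⟩
  have e11 := e ⟨1, by omega⟩ ⟨1, by omega⟩
  rw [Matrix.add_apply, n00] at e00
  rw [Matrix.add_apply, n11] at e11
  simp [Matrix.scalar_apply] at e00 e11
  have hs : sgn p a.e = 1 := by rw [← e11, e00]
  have he : a.e = 1 := by
    rcases Int.units_eq_one_or a.e with h | h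
    · exact h
    · exfalso
      rw [h] at hs
      simp only [sgn, Units.val_neg, Units.val_one, Int.cast_neg, Int.cast_one] at hs
      have h2 : (2 : ZMod p) = 0 := by linear_combination -hs
      have : ((2 : ℕ) : ZMod p) = 0 := by exact_mod_cast h2
      rw [ZMod.natCast_eq_zero_iff] at this
      have hp2 := (Nat.prime_dvd_prime_iff_eq Fact.out Nat.prime_two).mp this
      exact hp hp2
  have hv : a.v = 0 := by
    apply zN_injective (n := 4 * k + 1) (by omega)
    have h1 := hr'
    rw [zM, hs, zT_one, mul_one, e00, map_one] at h1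
    exact (add_eq_left.mp h1.symm)
  exact GDih.ext hv he

theorem zHom_centralizer (p : ℕ) [Fact p.Prime] (hp : p ≠ 2) (k : ℕ) :
    Subgroup.centralizer (((QuotientGroup.mk' (Subgroup.center
      (Matrix.SpecialLinearGroup (Fin (4 * k + 1)) (ZMod p)))).comp (zHom p k)).range :
        Set (Matrix.ProjectiveSpecialLinearGroup (Fin (4 * k + 1)) (ZMod p))) = ⊥ := by
  have h2 : (2 : ZMod p) ≠ 0 := by
    intro h2
    have : ((2 : ℕ) : ZMod p) = 0 := by exact_mod_cast h2
    rw [ZMod.natCast_eq_zero_iff] at this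
    exact hp ((Nat.prime_dvd_prime_iff_eq Fact.out Nat.prime_two).mp this)
  rw [eq_bot_iff]
  intro x hx
  rw [Subgroup.mem_bot]
  induction x using QuotientGroup.induction_on with
  | H g =>
    rw [Subgroup.mem_centralizer_iff] at hx
    have key : ∀ a : GDih p, ∃ r : ZMod p,
        g.1 * zM (4 * k + 1) a = r • (zM (4 * k + 1) a * g.1) := by
      intro a
      exact psl_comm_imp g (zHom p k a) (hx _ ⟨a, rfl⟩)
    -- unipotent elements
    have huni : ∀ v : Fin 3 → ZMod p, g.1 * zN (4 * k + 1) v = zN (4 * k + 1) v * g.1 := by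
      intro v
      obtain ⟨r, hr⟩ := key ⟨v, 1⟩
      have hM : zM (4 * k + 1) (⟨v, 1⟩ : GDih p) = 1 + zN (4 * k + 1) v := by
        rw [zM, sgn_one, zT_one, mul_one]
      rw [hM] at hr
      have h3 := twisted_pow hr p
      have h4 := one_add_pow_of_sq_zero ((zN_EO v).mul_eq_zero (zN_EO (n := 4 * k + 1) v)) p
      rw [CharP.cast_eq_zero, zero_smul, add_zero] at h4
      rw [h4, mul_one, one_mul, ZMod.pow_card] at h3
      have hr1 := eq_one_of_smul_eq g h3
      rw [hr1, one_smul, mul_add, add_mul, mul_one, one_mul] at hr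
      exact add_left_cancel hr
    have hX : g.1 * zX (ZMod p) (4 * k + 1) = zX (ZMod p) (4 * k + 1) * g.1 := by
      have := huni ![1, 0, 0]
      simpa [zN] using this
    have hY : g.1 * zY (ZMod p) (4 * k + 1) = zY (ZMod p) (4 * k + 1) * g.1 := by
      have := huni ![0, 1, 0]
      simpa [zN] using this
    have hT : g.1 * zT (4 * k + 1) (-1) = zT (4 * k + 1) (-1) * g.1 := by
      obtain ⟨r, hr⟩ := key ⟨0, -1⟩
      have hM : zM (4 * k + 1) (⟨0, -1⟩ : GDih p) = zT (4 * k + 1) (-1) := by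
        rw [zM, zN_zero, add_zero, one_mul]
        simp [sgn]
      rw [hM] at hr
      have h3 := twisted_pow hr 2
      have h4 : zT (4 * k + 1) (-1 : ZMod p) ^ 2 = 1 := by
        rw [pow_two, zT_mul]; simp [zT_one]
      rw [h4, mul_one, one_mul] at h3
      have hr2 := eq_one_of_smul_eq g h3
      have : (r - 1) * (r + 1) = 0 := by linear_combination hr2
      rcases mul_eq_zero.mp this with h | h
      · have hr1 : r = 1 := by linear_combination h
        rw [hr1, one_smul] at hr
        exact hr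
      · exfalso
        have hr1 : r = -1 := by linear_combination h
        rw [hr1] at hr
        have h5 : (g⁻¹).1 * g.1 = 1 := by
          rw [← Matrix.SpecialLinearGroup.coe_mul, inv_mul_cancel]; rfl
        have h6 : (zT (4 * k + 1) (-1 : ZMod p)).trace = -(zT (4 * k + 1) (-1 : ZMod p)).trace := by
          calc (zT (4 * k + 1) (-1 : ZMod p)).trace
              = ((g⁻¹).1 * (g.1 * zT (4 * k + 1) (-1))).trace := by
                rw [← mul_assoc, h5, one_mul]
            _ = -((g⁻¹).1 * (zT (4 * k + 1) (-1) * g.1)).trace := by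
                rw [hr, Matrix.mul_smul, Matrix.trace_smul]; simp
            _ = -(zT (4 * k + 1) (-1 : ZMod p)).trace := by
                rw [Matrix.trace_mul_comm, mul_assoc]
                have h7 : g.1 * (g⁻¹).1 = 1 := by
                  rw [← Matrix.SpecialLinearGroup.coe_mul, mul_inv_cancel]; rfl
                rw [h7, mul_one]
        rw [trace_zT] at h6
        apply h2
        linear_combination h6
    have hsc := scalar_of_comm_zigzag h2 (by omega) g.1 hT hX hY
    rw [QuotientGroup.eq_one_iff, Matrix.SpecialLinearGroup.mem_center_iff]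
    have hg : Matrix.scalar (Fin (4 * k + 1)) (g.1 ⟨0, by omega⟩ ⟨0, by omega⟩) = g.1 := by
      ext i j
      rw [hsc i j, Matrix.scalar_apply, Matrix.diagonal_apply]
    refine ⟨g.1 ⟨0, by omega⟩ ⟨0, by omega⟩, ?_, hg⟩
    have hd := g.2
    rw [← hg, Matrix.scalar_apply, Matrix.det_diagonal, Finset.prod_const, Finset.card_univ] at hd
    exact hd

end group

end Cfsg.Agent.Lib.Helper62
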